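import Cfsg.Agent.M24.Cent2

/-! Sections of groups of Monster type from the structure of a centralizer in the automorphism group of the lattice. -/

set_option autoImplicit false
set_option maxRecDepth 100000

namespace CA.M24

open Cfsg Subgroup Equiv CA.Fi
open scoped Pointwise symmDiff

noncomputable section

local notation "Λ" => leechLattice

theorem hroots_of {H : Subgroup Co0} {P : Vec → Prop} {k : ℕ} {ws us : List ℕ}
    (C : Crd H P (2 ^ k) (crdV us) (cmbV ws k)) {p : Pt} (he : P (e8 p)) {r0 : ℕ} {rest : List ℕ}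
    (h : ∀ r ∈ rest, ∀ a ∈ C.orbE (e8 p), r ≠ a.val) (a : Fin (2 ^ k)) (ha : a ∈ C.orbE (e8 p)) (j : ℕ)
    (e : getL (r0 :: rest) 0 j = a) : j = 0 := by
  cases j with
  | zero => rfl
  | succ j =>
    exfalso
    rcases getL_mem rest 0 j with e1 | e1
    · have := C.T4_of_orb he ha
      rw [← e, show getL (r0 :: rest) 0 (j + 1) = 0 from e1, cmbV_zero'] at this
      exact not_T4 (zero_mem _) (Cong.refl _) (by rw [sqNorm_zero]; norm_num) this
    · exact h _ e1 a ha e

theorem short_roots {H : Subgroup Co0} {P : Vec → Prop} {k : ℕ} {ws us : List ℕ}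
    (C : Crd H P (2 ^ k) (crdV us) (cmbV ws k)) {p : Pt} (he : P (e8 p)) {SP : List (ℕ × ℕ)}
    (h : allL (fun x => shortChk ws k x.1 x.2) SP = true) :
    ∀ r ∈ SP.map (·.1), ∀ a ∈ C.orbE (e8 p), r ≠ a.val := by
  intro r hr a ha e
  obtain ⟨x, hx, rfl⟩ := List.mem_map.1 hr
  exact not_T4_of_chk (allL_eq_true.1 h x hx) (e ▸ C.T4_of_orb he ha)

theorem inCM_of {π : Perm Pt} {gens : List ℕ}
    (h : allL (fun c => band (chk c) (commB c (code π))) gens = true) : ∀ c ∈ gens, InH (CM π) c := by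
  intro c hc
  have := allL_eq_true.1 h c hc
  rw [band_eq_true] at this
  obtain ⟨g, hg, rfl⟩ := inM_of_chk this.1
  exact ⟨g, ⟨hg, mem_cent_iff.2 (commB_code.1 this.2)⟩, rfl⟩

def r5A : ℕ := nat_lit 16315514359921459560175081981971521

theorem r5A_in : InH M24 r5A := inM_of_chk (by decide +kernel)

theorem classes_five {g : Perm Pt} (hg : g ∈ M24) (h : orderOf g = 5) : ∃ k ∈ M24, k * g * k⁻¹ = perm r5A := by
  obtain ⟨h2, h1⟩ := of_orderOf h (by norm_num)
  obtain ⟨k, hk, e1, e2, e3, e4⟩ := normal_form_big hg h2 h1 (by norm_num) (by norm_num)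
  have h := of_enum4 (q := fun c => anyL (fun r => Nat.beq (pmul r c) (pmul r5A r)) RL) (by decide +kernel)
    (by norm_num) (by norm_num) (by norm_num) (by norm_num) (mul_mem (mul_mem hk hg) (inv_mem hk))
    (conj_pow_eq_one h2) e1 e2 e3 e4
  obtain ⟨r, hr, e⟩ := anyL_eq_true.1 h
  obtain ⟨k', hk', rfl, -⟩ := RL_spec hr
  rw [beq_iff, ← r5A_in.code_perm, pmul_code, pmul_code, code_inj.eq_iff] at e
  exact ⟨k' * k, mul_mem hk' hk, conj_trans (by rw [e, mul_inv_cancel_right])⟩

theorem r7B_eq : perm r7B ^ 5 = perm r7A :=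
  code_inj (by rw [← ppow_code, r7B_in.code_perm, r7A_in.code_perm]; decide +kernel)

theorem not_conj_seven {σ : Perm Pt} (hσ : σ ∈ M24) : σ * perm r7A ≠ perm r7B * σ := by
  intro e
  have h : ∀ i j, i < 24 → dig r7A i = j → dig (code σ) j = dig r7B (dig (code σ) i) := by
    rintro i _ hi rfl
    have := congrArg (fun g => dig (code g) i) e
    simp only [← pmul_code, r7A_in.code_perm, r7B_in.code_perm] at this
    rwa [dig_pmul _ _ hi, dig_pmul _ _ hi] at this
  have e1 := h 23 0 (by norm_num) (by decide +kernel)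
  have e2 := h 0 1 (by norm_num) (by decide +kernel)
  have e3 := h 1 2 (by norm_num) (by decide +kernel)
  have e4 := h 2 3 (by norm_num) (by decide +kernel)
  have key : allR (fun a => force (dig r7B a) fun b => bor (Nat.beq b a) (force (dig r7B b) fun c =>
      force (dig r7B c) fun d => enum5 a b c d (dig r7B d) fun x => bne' (pmul x r7A) (pmul r7B x))) 24 = true := by
    decide +kernel
  have h1 := allR_eq_true.1 key _ (dig_code_lt σ (i := 23) (by norm_num))
  simp only [force_eq, bor_eq_true, beq_iff] at h1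
  rcases h1 with h1 | h1
  · exact dig_code_ne σ (by norm_num) (by norm_num) (by norm_num) (e1.trans h1)
  · have := enum5_spec h1 hσ rfl e1 (by rw [e2, e1]) (by rw [e3, e2, e1]) (by rw [e4, e3, e2, e1])
    rw [bne'_eq_true, ← r7A_in.code_perm, ← r7B_in.code_perm, pmul_code, pmul_code, e] at this
    exact this rfl

universe u

variable {G : Type u} [Group G] [Finite G] {z : G} {Q : Subgroup (centralizer ({z} : Set G))} [Q.Normal]

theorem exists_MS_e8 (hM : IsOfMonsterType z Q) {s : G} (hsQ : s ∈ amb Q) (hs : IsConj z s) (hs1 : s ≠ z) :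
    ∃ φ L, MS z Q φ L ∧ L s (e8 none) := by
  obtain ⟨φ, L, M⟩ := exists_MS hM
  obtain ⟨g, rfl⟩ := isConj_iff.1 hs
  obtain ⟨k, hk⟩ := M.exists_e8 (M.pair hsQ hs1)
  exact ⟨_, _, M.conj k, hk⟩

omit [Finite G] in
theorem exists_gen {s : G} {B : Subgroup G} (hB : B ≤ centralizer {z, s}) {p : ℕ} (hp : p.Prime)
    (h : Nat.card B = p) : ∃ b, orderOf b = p ∧ B = zpowers b ∧ Commute b z ∧ Commute b s := by
  obtain ⟨b, h1, rfl⟩ := exists_zpowers_of_card_prime hp h
  have := hB (mem_zpowers b)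
  rw [cent_pair] at this
  exact ⟨b, h1, rfl, mem_cent_iff.1 this.2, mem_cent_iff.1 this.1⟩

theorem MS.setting {φ : Co0 →* centralizer ({z} : Set G) ⧸ Q} {L : G → Vec → Prop} (M : MS z Q φ L) {s b : G}
    (hs : L s (e8 none)) (hbs : Commute b s) {p : ℕ} (hp : Odd p) (hb : orderOf b = p) {π : Perm Pt}
    (hπ : π ∈ M24) (ho : π ^ p = 1) (hA : AA φ b (pC π)) {w : ℕ} {crd : Vec → ℕ} {cmb : ℕ → Vec}
    (C : Crd (centralizer {pC π}) (FixC (pC π)) (2 ^ (2 * w)) crd cmb) {Y : Type*} [Group Y]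
    (hf : ∃ f : centralizer ({pC π} : Set Co0) →* Y, Function.Surjective f ∧ (∀ h, f h = 1 ↔ InK (pC π) h) ∧
      (∀ h ∈ centralizer ({pC π} : Set Co0), (∀ v ∈ Λ, FixC (pC π) v → FixC h v) → InK (pC π) h) ∧
      ∀ T : Subgroup Y, T.Normal → IsPGroup 2 T → T = ⊥)
    [((zpowers b).subgroupOf (centralizer ((zpowers b : Subgroup G) : Set G))).Normal] :
    ∃ (zb : centralizer ((zpowers b : Subgroup G) : Set G) ⧸
        (zpowers b).subgroupOf (centralizer ((zpowers b : Subgroup G) : Set G)))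
      (R : Subgroup (centralizer ({zb} : Set _))) (_ : R.Normal), IsExtraspecialCentralizerSetting zb R w ∧
        Nonempty (centralizer ({zb} : Set _) ⧸ R ≃* Y) ∧
        Nat.card {x : centralizer ({zb} : Set _) | x ∈ R ∧ IsConj zb x.1} =
          2 * Nat.card {a : Fin (2 ^ (2 * w)) // T4 (cmb a)} + 1 := by
  obtain ⟨f, h1, h2, h3, h4⟩ := hf
  have S := M.sec hs hA.comm hbs (hb ▸ hp)
  have hx : pC π ^ p = 1 := by
    rw [← pHom_apply ⟨π, hπ⟩, ← map_pow, ← map_one pHom]
    exact congrArg _ (Subtype.ext ho)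
  obtain ⟨hLE, F, hF, hk⟩ := M.sect S hA hp hx f h1 h2 h3
  haveI := normal_of_LE hLE
  let e := (QuotientGroup.quotientMulEquivOfEq hk.symm).trans (QuotientGroup.quotientKerEquivOfSurjective F hF)
  refine ⟨_, _, this, setting_of_LE hLE ?_ e h4 S.nwc', ⟨e⟩, ?_⟩
  · rw [S.card_eq, M.card_R hA (hb ▸ hp) C, pow_succ']
  · rw [S.card_conj, M.card_R_conj hA (hb ▸ hp) C]

theorem fact_aux {p k m n : ℕ} (hp : p.Prime) (h : n = p ^ k * m) (hm : ¬ p ∣ m) : n.factorization p = k := by
  have h0 : m ≠ 0 := fun e => hm (e ▸ dvd_zero p)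
  rw [h, Nat.factorization_mul (pow_ne_zero k hp.ne_zero) h0, Finsupp.add_apply,
    Nat.factorization_eq_zero_of_not_dvd hm, hp.factorization_pow, Finsupp.single_eq_same, add_zero]

theorem fact_three : (2 ^ 35 * 244823040).factorization 3 = 3 :=
  fact_aux (m := 2 ^ 35 * 9067520) Nat.prime_three (by norm_num) (by norm_num)

theorem fact_five : (2 ^ 35 * 244823040).factorization 5 = 1 :=
  fact_aux (m := 2 ^ 35 * 48964608) Nat.prime_five (by norm_num) (by norm_num)

theorem fact_seven : (2 ^ 35 * 244823040).factorization 7 = 1 :=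
  fact_aux (m := 2 ^ 35 * 34974720) Nat.prime_seven (by norm_num) (by norm_num)

end

end CA.M24

theorem CA.M24.realizeEqnsCent3 : True := by
  have := @CA.M24.r5A.eq_1
  have := @CA.M24.r5A.eq_def
  have := @CA.M24.r5A.congr_simp
  trivial
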