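import Cfsg.Agent.M24.Cent3
import Cfsg.Agent.Lin.Basic

/-! The centralizer of an element of order seven. -/

set_option autoImplicit false
set_option maxRecDepth 100000

namespace CA.M24.Held

open Cfsg Subgroup Equiv CA.Fi

noncomputable section

local notation "Λ" => leechLattice

theorem order : orderOf (perm r7A) = 7 :=
  haveI := Fact.mk Nat.prime_seven
  orderOf_perm r7A_in.code_perm (by decide +kernel)

def ws : List ℕ := [nat_lit 3347018339542579412187441149555950560840851536625369383040, nat_lit 3101817556426360742230078863566646553619868471549577298562, nat_lit 3151049723965515561005231899569162779341501459635940655232, nat_lit 3126242825074935125518237462314389570075216637463483088767, nat_lit 3150858907377279779943178188723530193632190767925483831424, nat_lit 3150858910311745638317551960893276846027138807017731293312]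
def us : List ℕ := [nat_lit 3077202970690229957395788999093300428002335846485062680961, nat_lit 3101819798381290389374154995668555526023780653637448925312, nat_lit 3101819053015410400679442876049980053582253398393782043262, nat_lit 3199898761784865514005723831609918508616313995897650446462, nat_lit 3200090332485110194047196022696412768808193396523044864128, nat_lit 3150667348380510957164006695875300801437491856780535169152]
def FB : List ℕ := [nat_lit 8536111, nat_lit 6337856, nat_lit 1903248]
def gens : List ℕ := [nat_lit 981818691054096003685363657089320992, nat_lit 251470644219332858952413999253501334]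
def DD : List (Word × ℕ × ℕ) := [([(nat_lit 984818244535754528103549039458486304, nat_lit 8536111, false)], nat_lit 39894865650094811627257857, nat_lit 984818244535754528103549006139983904),
  ([(nat_lit 984818244535754528103549039458486304, nat_lit 6337856, false)], nat_lit 38685921387958229098758145, nat_lit 984818244535754528103549006172458016),
  ([(nat_lit 984818244535754528103549039458486304, nat_lit 1903248, false)], nat_lit 39894865657976110975221761, nat_lit 984818244535754528103549039425948704),
  ([(nat_lit 981818691054096003685363657089320992, nat_lit 0, false)], nat_lit 65282344749579205794201601, nat_lit 984818244535754528103548935342229536),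
  ([(nat_lit 251470644219332858952413999253501334, nat_lit 0, false)], nat_lit 26597069025248099952754689, nat_lit 984818244535754528103549039389347872),
  ([(nat_lit 113193051892907559346653786122359811, nat_lit 6273537, true), (nat_lit 102983444656399762923215920988965387, nat_lit 4845570, true), (nat_lit 16939187044299743017323569735687279, nat_lit 1204944, false)], nat_lit 35059789569660525331152902, nat_lit 984818244535754528103548865446380736)]
def LL : ℕ := nat_lit 47754524193775055063884992272795486073467371788113260121926132079804407778049424303621088866908826050177170090240679611595834863164632142403847452673500314943029970843985621005073928539202858224005598288847889237799554496324213559899412958569671232031852462997194950056290955783783837588096448211543423721472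
def blks : List ℕ := [nat_lit 0, nat_lit 2, nat_lit 4, nat_lit 8, nat_lit 16, nat_lit 32, nat_lit 64, nat_lit 128]
def SP : List (ℕ × ℕ) := [(nat_lit 0, nat_lit 3150858910311745638317572730080710985337652928985868304512), (nat_lit 8, nat_lit 3126242825074935125518237462314389570075216637463483088767), (nat_lit 9, nat_lit 3175474995548556151116949536221900679221117464478887281025)]

theorem bas : basChk ws us 6 (nat_lit 38685921377825129937108993) = true := by decide +kernel

theorem crd : Crd (centralizer {pC (perm r7A)}) (FixC (pC (perm r7A))) (2 ^ 6) (crdV us) (cmbV ws 6) :=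
  crd_of_chk (n := 3) r7A_in.perm_mem rfl bas (by rw [r7A_in.code_perm]; decide +kernel)

theorem card_CM_le : Nat.card (CM (perm r7A)) ≤ 42 :=
  (card_CM5 (by rw [apply_pt _ (by norm_num), r7A_in.code_perm]; decide +kernel)
    (by rw [apply_pt _ (by norm_num), r7A_in.code_perm]; decide +kernel)
    (by rw [apply_pt _ (by norm_num), r7A_in.code_perm]; decide +kernel)
    (by rw [apply_pt _ (by norm_num), r7A_in.code_perm]; decide +kernel)).trans (by
      rw [card_moved r7A_in.code_perm, r7A_in.code_perm, mask_empty]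
      decide +kernel)

theorem gens_in : ∀ c ∈ gens, InH (CM (perm r7A)) c := inCM_of (by rw [r7A_in.code_perm]; decide +kernel)

theorem lb_CM : 42 ≤ chainLB [(nat_lit 0, nat_lit 8, [[nat_lit 0]]), (nat_lit 4, nat_lit 1, [])] gens := by decide +kernel

theorem card_CM : Nat.card (CM (perm r7A)) = 42 := card_CM_le.antisymm (lb_CM.trans (chainLB_le _ gens_in))

theorem CM_le : CM (perm r7A) ≤ gen gens := le_gen_of_chainLB _ gens_in (card_CM_le.trans lb_CM)

theorem fc : fcChk (code (perm r7A)) FB 8 = true := by rw [r7A_in.code_perm]; decide +kernel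

theorem hD : ∀ d ∈ DD, genChk (code (perm r7A)) ws us 6 d.1 d.2.1 = true := by
  rw [r7A_in.code_perm]
  exact allL_eq_true.1 (by decide +kernel)

theorem bfs : bfsChk (DD.map (·.2.1)) (nat_lit 1 :: nat_lit 48 :: SP.map (·.1)) LL 6 = true := by decide +kernel

def cert : List (ℕ × ℕ × List (List ℕ)) := [(nat_lit 1, nat_lit 2, [[nat_lit 3, nat_lit 0, nat_lit 1], [nat_lit 4, nat_lit 3]]), (nat_lit 2, nat_lit 2, [[nat_lit 0, nat_lit 0], [nat_lit 1, nat_lit 0, nat_lit 0, nat_lit 1, nat_lit 1, nat_lit 0]]), (nat_lit 4, nat_lit 1, [])]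

theorem lb_cert : chainLB cert (DD.map (·.2.2)) = 168 := by decide +kernel

def gw : Word := [(nat_lit 693888252517455339727705317544545417, nat_lit 7302503, true), (nat_lit 30516930807631357288411062514879553, nat_lit 0, true), (nat_lit 54773021093083688531610294216580813, nat_lit 6979970, false)]

theorem gw_ok : wordOk gw = true := by decide +kernel

theorem gw_conj : wordC gw * pC (perm r7A) = pC (perm r7B) * wordC gw :=
  comChk_spec r7A_in.perm_mem r7B_in.perm_mem gw_ok (by rw [r7A_in.code_perm, r7B_in.code_perm]; decide +kernel)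

theorem gw_cong : Cong (act (wordC gw) (cmbV ws 6 48)) (e8 none) := by
  obtain ⟨P, e, h⟩ := pkGo_spec (show pkGo (cmbF ws 48 6) (wordGo gw fun P' => congChk (vecN P') (vecN (e8N 23))) = true
    by decide +kernel)
  have e1 : vN P = cmbV ws 6 48 := e
  obtain ⟨P', e2, h1⟩ := wordGo_spec gw_ok h (e1 ▸ crd.mem _)
  rw [← e1, e2, ← vN_e8N]
  exact cong_of_congChk h1

theorem bad : ∀ a ∈ crd.orbE (e8 none), 48 ≠ a.val := by
  rintro _ ⟨h, rfl⟩ e
  have he := fixC_e8 r7A_in.perm_mem
  rw [crd.rho_pt h (e8_mem _) he] at e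
  have h1 := crd.cong _ (act_mem _ (e8_mem _)) (crd.inv _ h.2 _ (e8_mem _) he)
  rw [show crdV us (act h (e8 none)) = 48 from e.symm] at h1
  have h2 := (h1.act (crd.mem _) (wordC gw)).trans gw_cong
  rw [← act_mul] at h2
  obtain ⟨c, hc, σ, hσ, e1⟩ := mono_of_cong h2
  refine not_conj_seven hσ (mono_comm r7A_in.perm_mem hσ hc r7B_in.perm_mem ?_).2
  rw [← e1, mul_assoc, (mem_cent_iff.1 h.2).eq, ← mul_assoc, gw_conj, mul_assoc]

def ix (v : Fin 3 → ZMod 2) : ℕ := (v 0).val + 2 * (v 1).val + 4 * (v 2).val

theorem hY : ∀ d ∈ DD, ∃ y, ∀ i, ix (MulAction.toPermHom (Matrix.SpecialLinearGroup (Fin 3) (ZMod 2))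
    (Fin 3 → ZMod 2) y i) = dig d.2.2 (ix i) := by
  simp only [DD, List.forall_mem_cons]
  exact ⟨⟨⟨!![1, 0, 1; 0, 1, 0; 0, 0, 1], by decide⟩, by decide +kernel⟩, ⟨⟨!![1, 1, 0; 0, 1, 0; 0, 0, 1], by decide⟩, by decide +kernel⟩, ⟨⟨!![1, 1, 1; 0, 1, 0; 0, 0, 1], by decide⟩, by decide +kernel⟩, ⟨⟨!![1, 0, 1; 0, 1, 1; 0, 0, 1], by decide⟩, by decide +kernel⟩, ⟨⟨!![1, 0, 0; 0, 0, 1; 0, 1, 0], by decide⟩, by decide +kernel⟩, ⟨⟨!![0, 1, 1; 1, 0, 0; 1, 0, 1], by decide⟩, by decide +kernel⟩, by simp⟩

theorem card_Y : Nat.card (Matrix.SpecialLinearGroup (Fin 3) (ZMod 2)) = 168 := by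
  have := Cfsg.Agent.Lin.card_SL (ZMod.card 2) 3 (by norm_num)
  rw [Fin.prod_univ_three] at this
  simpa using this

theorem inj : Function.Injective (MulAction.toPermHom (Matrix.SpecialLinearGroup (Fin 3) (ZMod 2))
    (Fin 3 → ZMod 2)) := fun A B e => Subtype.ext (Matrix.mulVec_injective (funext fun v =>
      congrFun (congrArg DFunLike.coe e) v))

theorem main : ∃ f : centralizer ({pC (perm r7A)} : Set Co0) →* Matrix.SpecialLinearGroup (Fin 3) (ZMod 2), Function.Surjective f ∧
    (∀ h, f h = 1 ↔ InK (pC (perm r7A)) h) ∧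
    (∀ h ∈ centralizer ({pC (perm r7A)} : Set Co0), (∀ v ∈ Λ, FixC (pC (perm r7A)) v → FixC h v) →
      InK (pC (perm r7A)) h) ∧ ∀ T : Subgroup (Matrix.SpecialLinearGroup (Fin 3) (ZMod 2)), T.Normal → IsPGroup 2 T → T = ⊥ :=
  cent_main (p := 7) (n := 8) (nO := 7) (blks := blks) r7A_in.perm_mem (by decide) order crd bas fc CM_le card_CM_le
    (by decide +kernel) (by decide +kernel) DD (by decide +kernel) (by decide +kernel) hD (by decide +kernel)
    (by decide +kernel) bfs (by decide +kernel) (hroots_of crd (fixC_e8 r7A_in.perm_mem) (List.forall_mem_cons.2 ⟨bad, short_roots crd (fixC_e8 r7A_in.perm_mem) (by decide +kernel)⟩))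
    (by decide +kernel) (by norm_num) _ inj ix (by norm_num) (by decide +kernel) (by decide +kernel)
    (by decide +kernel) hY cert (by rw [lb_cert]; exact card_Y.le) (by rw [lb_cert])

theorem count : Nat.card {a : Fin (2 ^ 6) // T4 (cmbV ws 6 a)} = 14 := by
  have h1 := ncard_fin (fun a => Nat.ble (lb LL a) 1) (2 ^ 6)
  rw [show cntR (fun a => Nat.ble (lb LL a) 1) (2 ^ 6) = 14 by decide +kernel, ← Nat.card_coe_set_eq] at h1
  rw [← h1]
  refine Nat.card_congr (Equiv.subtypeEquivRight fun a => ?_)
  obtain ⟨s, -, e⟩ := bfsChk_spec bfs crd.rho ⊤ (fun T hT => by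
    obtain ⟨d, hd, rfl⟩ := List.mem_map.1 hT
    obtain ⟨h, -, e⟩ := genChk_spec r7A_in.perm_mem crd bas (hD d hd)
    exact ⟨h, mem_top _, e⟩) a
  rw [← crd.T4_rho s, e, Set.mem_setOf_eq, ble_iff]
  generalize lb LL a = j
  rcases j with _ | _ | j
  · refine iff_of_true ⟨e8 none, ?_, sqNorm_e8 _⟩ (by norm_num)
    have := crd.cong _ (e8_mem _) (fixC_e8 r7A_in.perm_mem)
    rwa [← vN_e8N, vN, crdV_vecF, show crdF us (vecN (e8N (idx none))) = 1 by decide +kernel,
      ← vN, vN_e8N] at this
  · have := T4.act ⟨_, gw_cong.symm, sqNorm_e8 _⟩ (act_mem _ (crd.mem _)) (wordC gw)⁻¹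
    rw [act_inv_act] at this
    exact iff_of_true this (by norm_num)
  · refine iff_of_false ?_ (by omega)
    show ¬ T4 (cmbV ws 6 (getL (SP.map (·.1)) 0 j))
    rcases getL_mem (SP.map (·.1)) 0 j with e1 | e1
    · rw [e1, cmbV_zero']
      exact not_T4 (zero_mem _) (Cong.refl _) (by rw [sqNorm_zero]; norm_num)
    · obtain ⟨x, hx, e2⟩ := List.mem_map.1 e1
      rw [← e2]
      exact not_T4_of_chk (allL_eq_true.1 (show allL (fun x => shortChk ws 6 x.1 x.2) SP = true by decide +kernel) x hx)

end

end CA.M24.Held

theorem CA.M24.realizeEqnsHeld : True := by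
  have := @CA.M24.Held.LL.eq_1
  have := @CA.M24.Held.LL.eq_def
  have := @CA.M24.Held.LL.congr_simp
  have := @CA.M24.Held.us.eq_1
  have := @CA.M24.Held.us.eq_def
  have := @CA.M24.Held.us.congr_simp
  have := @CA.M24.Held.ix.eq_1
  have := @CA.M24.Held.ix.eq_def
  have := @CA.M24.Held.ix.congr_simp
  have := @CA.M24.Held.gw.eq_1
  have := @CA.M24.Held.gw.eq_def
  have := @CA.M24.Held.gw.congr_simp
  have := @CA.M24.Held.gens.eq_1
  have := @CA.M24.Held.gens.eq_def
  have := @CA.M24.Held.gens.congr_simp
  have := @CA.M24.Held.ws.eq_1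
  have := @CA.M24.Held.ws.eq_def
  have := @CA.M24.Held.ws.congr_simp
  have := @CA.M24.Held.SP.eq_1
  have := @CA.M24.Held.SP.eq_def
  have := @CA.M24.Held.SP.congr_simp
  have := @CA.M24.Held.DD.eq_1
  have := @CA.M24.Held.DD.eq_def
  have := @CA.M24.Held.DD.congr_simp
  have := @CA.M24.Held.FB.eq_1
  have := @CA.M24.Held.FB.eq_def
  have := @CA.M24.Held.FB.congr_simp
  have := @CA.M24.Held.cert.eq_1
  have := @CA.M24.Held.cert.eq_def
  have := @CA.M24.Held.cert.congr_simp
  have := @CA.M24.Held.blks.eq_1
  have := @CA.M24.Held.blks.eq_def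
  have := @CA.M24.Held.blks.congr_simp
  trivial
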