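import Cfsg.Agent.M24.Chain

/-! Automorphisms of the even half of the Golay cocode which preserve the duads. -/

set_option autoImplicit false

namespace CA.M24

open Cfsg Equiv Subgroup
open scoped Pointwise symmDiff

/-- a parametrisation of an elementary abelian group by the Golay cocode -/
structure Todd {G : Type*} [Group G] (ψ : Finset Pt → G) : Prop where
  mul : ∀ S T, ψ (S ∆ T) = ψ S * ψ T
  ker : ∀ T, Even T.card → (ψ T = 1 ↔ T ∈ Cs)

theorem pair_eq {a b : Pt} (h : a ≠ b) : ({a} : Finset Pt) ∆ {b} = {a, b} := by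
  ext x
  simp only [Finset.mem_symmDiff, Finset.mem_singleton, Finset.mem_insert]
  constructor
  · tauto
  · rintro (rfl | rfl)
    exacts [.inl ⟨rfl, h⟩, .inr ⟨rfl, h.symm⟩]

namespace Todd

variable {G : Type*} [Group G] {ψ : Finset Pt → G} (h : Todd ψ)
include h

theorem empty : ψ ∅ = 1 := (h.ker ∅ (by simp)).2 empty_mem_Cs

theorem sq (S : Finset Pt) : ψ S * ψ S = 1 := by rw [← h.mul, symmDiff_self]; exact h.empty

theorem comm (S T : Finset Pt) : Commute (ψ S) (ψ T) := by rw [Commute, SemiconjBy, ← h.mul, ← h.mul, symmDiff_comm]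

theorem inj {S T : Finset Pt} (h1 : Even (S.card + T.card)) (h2 : S.card + T.card < 8) (e : ψ S = ψ T) : S = T := by
  have h3 := card_symmDiff_add S T
  have := card_of_mem_Cs ((h.ker (S ∆ T) (by rw [Nat.even_iff] at h1 ⊢; omega)).1 (by rw [h.mul, e, h.sq]))
  exact symmDiff_eq_bot.1 (Finset.card_eq_zero.1 (by omega))

theorem perm_ext {π π' : Perm Pt} (e : ∀ T : Finset Pt, T.card = 2 → ψ (π • T) = ψ (π' • T)) : π = π' := by
  refine Equiv.ext fun p => by_contra fun H => ?_
  have key : ∀ q, q ≠ p → π p = π' q := fun q hq => by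
    have h2 := Finset.card_pair hq.symm
    have := (h.inj (by simp only [Finset.card_smul_finset, h2]; decide) (by simp [h2]) (e _ h2)).le (Finset.smul_mem_smul_finset (Finset.mem_insert_self p _))
    simpa [H, Finset.smul_finset_insert] using this
  obtain ⟨q, r, h1, h2, h3⟩ : ∃ q r, q ≠ p ∧ r ≠ p ∧ q ≠ r := by clear key H; revert p; decide
  exact h3 (π'.injective ((key q h1).symm.trans (key r h2)))

theorem exists_perm (φ : G →* G) (hφ : Function.Injective φ)
    (hY : ∀ D : Finset Pt, D.card = 2 → ∃ D' : Finset Pt, D'.card = 2 ∧ φ (ψ D) = ψ D') :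
    ∃ π ∈ M24, ∀ T : Finset Pt, Even T.card → φ (ψ T) = ψ (π • T) := by
  have c2 : ∀ {p q : Pt}, p ≠ q → (({p} : Finset Pt) ∆ {q}).card = 2 := fun H => by rw [pair_eq H, Finset.card_pair H]
  choose! F h1 h2 using fun (p : Pt) (hp : none ≠ p) => hY _ (c2 hp)
  have h3 : ∀ p q, none ≠ p → none ≠ q → φ (ψ ({p} ∆ {q})) = ψ (F p ∆ F q) := fun p q hp hq => by
    rw [h.mul (F p), ← h2 p hp, ← h2 q hq, ← map_mul, ← h.mul, symmDiff_symmDiff_symmDiff_comm, symmDiff_self,
      bot_symmDiff]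
  have h4 : ∀ p q, none ≠ p → none ≠ q → p ≠ q → (F p ∆ F q).card = 2 ∧ (F p ∩ F q).card = 1 := fun p q hp hq H => by
    obtain ⟨D, a, b⟩ := hY _ (c2 H)
    have c := card_symmDiff_add (F p) (F q)
    rw [h1 p hp, h1 q hq] at c
    have := congrArg Finset.card (h.inj (by rw [Nat.even_iff]; omega) (by omega) (b.symm.trans (h3 p q hp hq)))
    omega
  obtain ⟨a, ha⟩ := Finset.card_eq_one.1 (h4 (some 0) (some 1) nofun nofun (by decide)).2
  have h5 : ∀ p, none ≠ p → a ∈ F p := fun p hp => by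
    have h0 := Finset.mem_inter.1 (ha.ge (Finset.mem_singleton_self a))
    by_contra H
    obtain ⟨x, hx⟩ := Finset.card_pos.1 (h4 p (some 0) hp nofun fun e => H (e ▸ h0.1)).2.ge
    obtain ⟨y, hy⟩ := Finset.card_pos.1 (h4 p (some 1) hp nofun fun e => H (e ▸ h0.2)).2.ge
    rw [Finset.mem_inter] at hx hy
    have k : ∀ x ∈ F p, x ∈ F (some 0) → x ∉ F (some 1) := fun x a b c =>
      H (Finset.mem_singleton.1 (ha.le (Finset.mem_inter.2 ⟨b, c⟩)) ▸ a)
    have xy : x ≠ y := fun e => k x hx.1 hx.2 (e ▸ hy.2)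
    have e1 : {x, y} = F p := Finset.eq_of_subset_of_card_le (by simp [Finset.insert_subset_iff, hx.1, hy.1])
      (by rw [h1 p hp, Finset.card_pair xy])
    have e2 : {x, y} = F (some 0) ∆ F (some 1) := Finset.eq_of_subset_of_card_le (by
      simp only [Finset.insert_subset_iff, Finset.singleton_subset_iff, Finset.mem_symmDiff]
      exact ⟨.inl ⟨hx.2, k x hx.1 hx.2⟩, .inr ⟨hy.2, fun c => k y hy.1 c hy.2⟩⟩)
      (by rw [(h4 (some 0) (some 1) nofun nofun (by decide)).1, Finset.card_pair xy])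
    have := h.inj (by rw [c2 hp, c2 (by decide)]; decide) (by rw [c2 hp, c2 (by decide)]; decide)
      (hφ ((h2 p hp).trans ((congrArg ψ (e1.symm.trans e2)).trans (h3 (some 0) (some 1) nofun nofun).symm)))
    rw [pair_eq hp, pair_eq (by decide)] at this
    simpa using this.le (Finset.mem_insert_self _ _)
  have h6 : ∀ p, ∃ r, φ (ψ ({none} ∆ {p})) = ψ ({a} ∆ {r}) := fun p => by
    rcases eq_or_ne none p with rfl | hp
    · exact ⟨a, by rw [h.mul, h.mul, h.sq, h.sq, map_one]⟩
    obtain ⟨x, y, xy, e⟩ := Finset.card_eq_two.1 (h1 p hp)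
    have := h5 p hp
    rw [h2 p hp, e] at *
    rcases Finset.mem_insert.1 this with rfl | H
    · exact ⟨y, by rw [pair_eq xy]⟩
    · exact ⟨x, by rw [Finset.mem_singleton.1 H, pair_eq xy.symm, Finset.pair_comm]⟩
  choose f hf using h6
  have h7 : Function.Injective f := fun p q e => by
    have := hφ ((hf p).trans ((e ▸ rfl : _ = ψ ({a} ∆ {f q})).trans (hf q).symm))
    rw [h.mul, h.mul, mul_right_inj] at this
    exact Finset.singleton_injective (h.inj (by simp) (by simp) this)
  let π := Equiv.ofBijective f (Finite.injective_iff_bijective.1 h7)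
  have h8 : ∀ T : Finset Pt, φ (ψ {none} ^ T.card * ψ T) = ψ {a} ^ T.card * ψ (π • T) := fun T => by
    induction T using Finset.induction_on with
    | empty => simp [h.empty]
    | insert p T hp ih =>
      have e : ∀ {p} {T : Finset Pt}, p ∉ T → insert p T = {p} ∆ T := fun H => by
        rw [Disjoint.symmDiff_eq_sup (Finset.disjoint_singleton_left.2 H)]; rfl
      have := hf p
      rw [h.mul, h.mul] at this
      rw [Finset.card_insert_of_notMem hp, Finset.smul_finset_insert, e hp,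
        e (mt (Finset.smul_mem_smul_finset_iff π).1 hp), h.mul, h.mul, pow_succ', pow_succ',
        ((h.comm _ _).pow_left _).mul_mul_mul_comm, ((h.comm _ _).pow_left _).mul_mul_mul_comm, map_mul, ih, this]
      rfl
  have h9 : ∀ T : Finset Pt, Even T.card → φ (ψ T) = ψ (π • T) := fun T ⟨n, e⟩ => by
    simpa only [e, ← two_mul, pow_mul, pow_two, h.sq, one_pow, one_mul] using h8 T
  refine ⟨π, mem_M24_iff.2 fun S hS => ?_, h9⟩
  have : Even S.card := by simpa using even_card_inter hS hS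
  rw [← h.ker _ (by simpa using this), ← h9 S this, (h.ker S this).2 hS, map_one]

theorem exists_hom {A M : Subgroup G} (hA : ∀ a, a ∈ A ↔ ∃ T : Finset Pt, Even T.card ∧ ψ T = a)
    (hC : ∀ g, (∀ a ∈ A, Commute g a) → g ∈ A)
    (hY : ∀ m ∈ M, ∀ D : Finset Pt, D.card = 2 → ∃ D' : Finset Pt, D'.card = 2 ∧ m * ψ D * m⁻¹ = ψ D') :
    ∃ θ : M →* M24, θ.ker = A.subgroupOf M ∧
      ∀ m : M, ∀ T : Finset Pt, Even T.card → m * ψ T * (m : G)⁻¹ = ψ ((θ m : Perm Pt) • T) := by
  choose f h1 h2 using fun m : M => h.exists_perm (MulAut.conj (m : G)).toMonoidHom (MulAut.conj (m : G)).injective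
    (hY m m.2)
  have e2 : ∀ {T : Finset Pt}, T.card = 2 → Even T.card := fun H => by rw [H]; decide
  refine ⟨MonoidHom.mk' (fun m => ⟨f m, h1 m⟩) fun a b => Subtype.ext (h.perm_ext fun T hT => ?_),
    Subgroup.ext fun m => ⟨fun H => hC _ fun a ha => ?_, fun H => Subtype.ext (h.perm_ext fun T hT => ?_)⟩, h2⟩
  · rw [coe_mul, mul_smul, ← h2 _ _ (e2 hT), ← h2 _ _ (e2 (by simpa using hT)), ← h2 _ _ (e2 hT), coe_mul, map_mul]
    rfl
  · obtain ⟨T, hT, rfl⟩ := (hA a).1 ha
    have := h2 m T hT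
    rw [show f m = 1 from congrArg Subtype.val H, one_smul] at this
    exact mul_inv_eq_iff_eq_mul.1 this
  · obtain ⟨S, -, e⟩ := (hA _).1 H
    refine (h2 m T (e2 hT)).symm.trans ?_
    rw [coe_one, one_smul]
    show M.subtype m * _ * (M.subtype m)⁻¹ = _
    rw [← e, (h.comm S T).eq, mul_inv_cancel_right]

end Todd

end CA.M24
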