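import Cfsg.Agent.EqAll
import Cfsg.Prelude.Def_Sporadic_a

/-! Abstract extended binary Golay codes. -/

set_option autoImplicit false

namespace CA.M24.Abs

open Cfsg
open scoped symmDiff

noncomputable section

/-- the word with a given support -/
def wd (s : Finset (Fin 24)) : Fin 24 → ZMod 2 := fun i => if i ∈ s then 1 else 0

theorem z2 : ∀ a : ZMod 2, a ≠ 0 ↔ a = 1 := by decide

theorem supp_wd (s : Finset (Fin 24)) : support₂ (wd s) = s := by
  ext i
  by_cases h : i ∈ s <;> simp [support₂, wd, h]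

theorem wd_supp (w : Fin 24 → ZMod 2) : wd (support₂ w) = w := by
  funext i
  by_cases h : w i = 0
  · simp [support₂, wd, h]
  · simp [support₂, wd, (z2 _).1 h]

theorem wd_symmDiff (s t : Finset (Fin 24)) : wd (s ∆ t) = wd s + wd t := by
  funext i
  by_cases h : i ∈ s <;> by_cases h' : i ∈ t <;> simp [wd, h, h', Finset.mem_symmDiff]
  rfl

theorem wd_sub (s t : Finset (Fin 24)) : wd s - wd t = wd (s ∆ t) := by
  rw [wd_symmDiff, sub_eq_add_neg, ZModModule.neg_eq_self]

theorem wd_empty : wd ∅ = 0 := by funext i; simp [wd]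

theorem norm_eq (w : Fin 24 → ZMod 2) : hammingNorm w = (support₂ w).card := rfl

theorem norm_wd (s : Finset (Fin 24)) : hammingNorm (wd s) = s.card := by rw [norm_eq, supp_wd]

theorem card_sd (s t : Finset (Fin 24)) : (s ∆ t).card + 2 * (s ∩ t).card = s.card + t.card := by
  rw [Finset.symmDiff_def, Finset.card_union_of_disjoint disjoint_sdiff_sdiff,
    ← Finset.card_sdiff_add_card_inter s t, ← Finset.card_sdiff_add_card_inter t s, Finset.inter_comm t s]
  ring

theorem dot_wd (s t : Finset (Fin 24)) : ∑ i, wd s i * wd t i = ((s ∩ t).card : ℕ) := by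
  have : ∀ i, wd s i * wd t i = if i ∈ s ∩ t then 1 else 0 := fun i => by
    by_cases h : i ∈ s <;> by_cases h' : i ∈ t <;> simp [wd, h, h']
  simp only [this]
  rw [Finset.sum_boole]
  congr 2
  ext i
  simp

variable {C : Submodule (ZMod 2) (Fin 24 → ZMod 2)}

theorem min8 (hmin : ∀ w ∈ C, w ≠ 0 → 8 ≤ hammingNorm w) {s t : Finset (Fin 24)} (h : wd (s ∆ t) ∈ C)
    (hne : s ≠ t) : 8 ≤ (s ∆ t).card := by
  rw [← norm_wd]
  refine hmin _ h fun e => hne ?_
  have := congrArg support₂ (e.trans wd_empty.symm)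
  rw [supp_wd, supp_wd] at this
  exact symmDiff_eq_bot.1 this

theorem disj4 (hmin : ∀ w ∈ C, w ≠ 0 → 8 ≤ hammingNorm w) {s t : Finset (Fin 24)} (h : wd (s ∆ t) ∈ C)
    (hne : s ≠ t) (hs : s.card ≤ 4) (ht : t.card ≤ 4) : s.card = 4 ∧ t.card = 4 ∧ Disjoint s t := by
  have h1 := min8 hmin h hne
  have h2 := card_sd s t
  exact ⟨by omega, by omega, Finset.disjoint_iff_inter_eq_empty.2 (Finset.card_eq_zero.1 (by omega))⟩

theorem card_quot (hdim : Module.finrank (ZMod 2) C = 12) :
    Nat.card ((Fin 24 → ZMod 2) ⧸ C) = 4096 := by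
  have h1 := Submodule.finrank_quotient_add_finrank C
  rw [hdim, Module.finrank_fin_fun] at h1
  rw [Module.natCard_eq_pow_finrank (K := ZMod 2), Nat.card_zmod,
    show Module.finrank (ZMod 2) ((Fin 24 → ZMod 2) ⧸ C) = 12 by omega]
  norm_num

theorem cosets (hdim : Module.finrank (ZMod 2) C = 12) (hmin : ∀ w ∈ C, w ≠ 0 → 8 ≤ hammingNorm w) :
    (∀ s, ∃ t : Finset (Fin 24), t.card ≤ 4 ∧ wd (t ∆ s) ∈ C) ∧
    ∀ s : Finset (Fin 24), s.card = 4 → {t : Finset (Fin 24) | t.card = 4 ∧ wd (t ∆ s) ∈ C}.ncard = 6 := by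
  classical
  haveI : Finite ((Fin 24 → ZMod 2) ⧸ C) := Nat.finite_of_card_ne_zero (by rw [card_quot hdim]; norm_num)
  letI := Fintype.ofFinite ((Fin 24 → ZMod 2) ⧸ C)
  let π : Finset (Fin 24) → (Fin 24 → ZMod 2) ⧸ C := fun s => C.mkQ (wd s)
  have hπ : ∀ s t, π s = π t ↔ wd (s ∆ t) ∈ C := fun s t => by
    rw [← wd_sub]; exact Submodule.Quotient.eq C
  let S3 : Finset (Finset (Fin 24)) := (Finset.range 4).biUnion fun k => Finset.univ.powersetCard k
  let S4 : Finset (Finset (Fin 24)) := Finset.univ.powersetCard 4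
  have m3 : ∀ s, s ∈ S3 ↔ s.card < 4 := fun s => by simp [S3]
  have m4 : ∀ s, s ∈ S4 ↔ s.card = 4 := fun s => by simp [S4]
  have c3 : S3.card = 2325 := by
    rw [Finset.card_biUnion fun a _ b _ h => Finset.pairwise_disjoint_powersetCard _ h]
    simp only [Finset.card_powersetCard, Finset.card_univ, Fintype.card_fin]
    decide +kernel
  have c4 : S4.card = 10626 := by
    rw [Finset.card_powersetCard, Finset.card_univ, Fintype.card_fin]
    decide +kernel
  have i3 : (S3.image π).card = 2325 := by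
    rw [Finset.card_image_of_injOn, c3]
    intro s hs t ht e
    by_contra hne
    have := (disj4 hmin ((hπ s t).1 e) hne ((m3 s).1 hs).le ((m3 t).1 ht).le).1
    have := (m3 s).1 hs
    omega
  have hd : Disjoint (S3.image π) (S4.image π) := Finset.disjoint_left.2 fun q h3 h4 => by
    obtain ⟨s, hs, rfl⟩ := Finset.mem_image.1 h3
    obtain ⟨t, ht, e⟩ := Finset.mem_image.1 h4
    have h1 := (m3 s).1 hs
    have h2 := (m4 t).1 ht
    have := (disj4 hmin ((hπ t s).1 e) (fun e => by rw [e] at h2; omega) h2.le h1.le).2.1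
    omega
  have f6 : ∀ q, (S4.filter fun t => π t = q).card ≤ 6 := fun q => by
    have h1 : ((S4.filter fun t => π t = q).biUnion id).card = ∑ t ∈ S4.filter fun t => π t = q, 4 := by
      rw [Finset.card_biUnion]
      · exact Finset.sum_congr rfl fun t ht => (m4 t).1 (Finset.mem_filter.1 ht).1
      · intro s hs t ht hne
        obtain ⟨h1, h2⟩ := Finset.mem_filter.1 hs
        obtain ⟨h3, h4⟩ := Finset.mem_filter.1 ht
        exact (disj4 hmin ((hπ s t).1 (h2.trans h4.symm)) hne ((m4 s).1 h1).le ((m4 t).1 h3).le).2.2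
    have h2 := Finset.card_le_univ ((S4.filter fun t => π t = q).biUnion id)
    rw [h1, Finset.sum_const, smul_eq_mul, Fintype.card_fin] at h2
    omega
  have hu := Finset.card_le_univ (S3.image π ∪ S4.image π)
  have hq : Fintype.card ((Fin 24 → ZMod 2) ⧸ C) = 4096 := by rw [← Nat.card_eq_fintype_card, card_quot hdim]
  rw [Finset.card_union_of_disjoint hd, i3, hq] at hu
  have hs := Finset.card_eq_sum_card_image π S4
  have hs2 := Finset.sum_le_card_nsmul _ _ _ fun q (_ : q ∈ S4.image π) => f6 q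
  rw [← hs, c4, smul_eq_mul] at hs2
  have i4 : (S4.image π).card = 1771 := by omega
  constructor
  · intro s
    have : π s ∈ S3.image π ∪ S4.image π := by
      rw [Finset.eq_univ_of_card (S3.image π ∪ S4.image π) (by rw [Finset.card_union_of_disjoint hd, i3, i4, hq])]
      exact Finset.mem_univ _
    rcases Finset.mem_union.1 this with h | h <;> obtain ⟨t, ht, e⟩ := Finset.mem_image.1 h
    exacts [⟨t, ((m3 t).1 ht).le, (hπ _ _).1 e⟩, ⟨t, ((m4 t).1 ht).le, (hπ _ _).1 e⟩]
  · intro s hs4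
    have := (Finset.sum_eq_sum_iff_of_le fun q (_ : q ∈ S4.image π) => f6 q).1
      (by rw [← hs, c4, Finset.sum_const, i4]; rfl) _ (Finset.mem_image_of_mem π ((m4 s).2 hs4))
    rw [← this, ← Set.ncard_coe_finset]
    refine congrArg _ (Set.ext fun t => ?_)
    rw [Finset.mem_coe, Finset.mem_filter, m4, hπ]
    rfl

theorem exists_oct (hdim : Module.finrank (ZMod 2) C = 12) (hmin : ∀ w ∈ C, w ≠ 0 → 8 ≤ hammingNorm w)
    {s : Finset (Fin 24)} (hs : s.card = 5) : ∃ o, wd o ∈ C ∧ o.card = 8 ∧ s ⊆ o := by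
  classical
  obtain ⟨a, ha⟩ := Finset.card_pos.1 (show 0 < s.card by omega)
  have h4 : (s.erase a).card = 4 := by rw [Finset.card_erase_of_mem ha, hs]
  have h6 := (cosets hdim hmin).2 _ h4
  set T := Finset.univ.filter fun t : Finset (Fin 24) => t.card = 4 ∧ wd (t ∆ s.erase a) ∈ C with hT
  have hT6 : T.card = 6 := by
    rw [← h6, ← Set.ncard_coe_finset]
    congr 1
    ext t
    simp [hT]
  have h1 : (T.biUnion id).card = ∑ t ∈ T, 4 := by
    rw [Finset.card_biUnion]
    · exact Finset.sum_congr rfl fun t ht => (Finset.mem_filter.1 ht).2.1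
    · intro t ht u hu hne
      have h1 := (Finset.mem_filter.1 ht).2
      have h2 := (Finset.mem_filter.1 hu).2
      refine (disj4 hmin ?_ hne h1.1.le h2.1.le).2.2
      have := C.add_mem h1.2 h2.2
      rwa [← wd_symmDiff, symmDiff_symmDiff_symmDiff_comm, symmDiff_self, symmDiff_bot] at this
  have h2 : a ∈ T.biUnion id := by
    rw [Finset.eq_univ_of_card (T.biUnion id) (by rw [h1, Finset.sum_const, hT6]; rfl)]
    exact Finset.mem_univ a
  obtain ⟨t, ht, hat⟩ := Finset.mem_biUnion.1 h2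
  obtain ⟨h3, h5⟩ := (Finset.mem_filter.1 ht).2
  have hd := (disj4 hmin h5 (fun e => Finset.notMem_erase a s (e ▸ hat)) h3.le h4.le).2.2
  refine ⟨_, h5, ?_, fun x hx => ?_⟩
  · have := card_sd t (s.erase a)
    rw [Finset.disjoint_iff_inter_eq_empty.1 hd, Finset.card_empty] at this
    omega
  · rw [Finset.mem_symmDiff]
    by_cases e : x = a
    · exact Or.inl ⟨e ▸ hat, e ▸ Finset.notMem_erase a s⟩
    · have := Finset.mem_erase.2 ⟨e, hx⟩
      exact Or.inr ⟨this, Finset.disjoint_right.1 hd this⟩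

theorem oct_induction (hdim : Module.finrank (ZMod 2) C = 12) (hmin : ∀ w ∈ C, w ≠ 0 → 8 ≤ hammingNorm w)
    (P : Finset (Fin 24) → Prop) (h0 : P ∅)
    (h1 : ∀ s o, wd s ∈ C → wd o ∈ C → o.card = 8 → P s → P (s ∆ o)) (s : Finset (Fin 24)) (hs : wd s ∈ C) :
    P s := by
  induction h : s.card using Nat.strong_induction_on generalizing s with
  | _ n ih =>
  by_cases e : s = ∅
  · exact e ▸ h0
  have h8 := min8 hmin (s := s) (t := ∅) (by rwa [show s ∆ ∅ = s from symmDiff_bot s]) e
  rw [show s ∆ ∅ = s from symmDiff_bot s] at h8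
  obtain ⟨t, ht, h5⟩ := Finset.exists_subset_card_eq (show 5 ≤ s.card by omega)
  obtain ⟨o, ho, c8, hto⟩ := exists_oct hdim hmin h5
  have h2 : wd (s ∆ o) ∈ C := wd_symmDiff s o ▸ C.add_mem hs ho
  have h3 := card_sd s o
  have h4 := Finset.card_le_card (Finset.subset_inter ht hto)
  have := h1 _ o h2 ho c8 (ih _ (by omega) _ h2 rfl)
  rwa [symmDiff_symmDiff_cancel_right] at this

end

end CA.M24.Abs

theorem CA.M24.realizeEqnsAbsGolay : True := by
  have := @CA.M24.Abs.wd.eq_1
  have := @CA.M24.Abs.wd.eq_def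
  have := @CA.M24.Abs.wd.congr_simp
  trivial
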