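import Cfsg.Agent.M24.Cent3

/-! The centralizer of an element of order five. -/

set_option autoImplicit false
set_option maxRecDepth 100000

namespace CA.M24.Hara

open Cfsg Subgroup Equiv CA.Fi

noncomputable section

local notation "Λ" => leechLattice

theorem order : orderOf (perm r5A) = 5 :=
  haveI := Fact.mk Nat.prime_five
  orderOf_perm r5A_in.code_perm (by decide +kernel)

def ws : List ℕ := [nat_lit 3347018339542579412187441149555950560840851536625369383040, nat_lit 3126243573375236196199785873221021245151732109993303834495, nat_lit 3150667348369137401529723587295698587056414076591593783424, nat_lit 3175474995548556151116928767034466521021137411014989545857, nat_lit 3175282685305647192096633402008940793316884710810024247681, nat_lit 3126434387017543362306086605099401968356455489857757609855, nat_lit 3126434387017543362306065835911967829045941372270487240575, nat_lit 3150858913234748738754796358938689504615381394020162896000]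
def us : List ℕ := [nat_lit 3028163858759774708452371264681144968688463571136643301761, nat_lit 3151051223454777655875114814210675997073553749972124467838, nat_lit 3199898767619454254648471846192543248952496097440326124162, nat_lit 3150858916157707411928873933961787467680452610493992042622, nat_lit 3150667348380510957164006695875300801437491856780535169152, nat_lit 3150858913234748738076890081088382399989562149391277654142, nat_lit 3199707956877314227251943053991538099962635180379910209152, nat_lit 3199707199830839295673589444666764179387473914906613546622]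
def FB : List ℕ := [nat_lit 8536111, nat_lit 1204944, nat_lit 13727199, nat_lit 12495071]
def gens : List ℕ := [nat_lit 93082727129718744816579971103359715, nat_lit 649058302286616894857853267060807275]
def DD : List (Word × ℕ × ℕ) := [([(nat_lit 984818244535754528103549039458486304, nat_lit 8536111, false)], nat_lit 1137129333230961307045436209367482369, nat_lit 984818244535754528103331227543838917),
  ([(nat_lit 984818244535754528103549039458486304, nat_lit 1204944, false)], nat_lit 664628496904910847060214396874522625, nat_lit 984818244535754528103365279120333061),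
  ([(nat_lit 984818244535754528103549039458486304, nat_lit 13727199, false)], nat_lit 1277310890135577960506958421336260609, nat_lit 984818244535754528103262991251873061),
  ([(nat_lit 984818244535754528103549039458486304, nat_lit 12495071, false)], nat_lit 893077911964048854405260962490417153, nat_lit 984818244535754528103297042824307941),
  ([(nat_lit 93082727129718744816579971103359715, nat_lit 0, false)], nat_lit 20769345958167984972747922756337665, nat_lit 984818244535754528103546875866612864),
  ([(nat_lit 649058302286616894857853267060807275, nat_lit 0, false)], nat_lit 207708512453785728289042689466368001, nat_lit 984818244535754528103476542554836096),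
  ([(nat_lit 258931115531851085639287349425757899, nat_lit 4845570, true), (nat_lit 30691782381489240737604700241900869, nat_lit 4264387, false)], nat_lit 1090394620942812644313215326055432215, nat_lit 984818244535754528103443556134359072),
  ([(nat_lit 215580078385787908999665729099322994, nat_lit 8640101, true), (nat_lit 26827658767205233096008157364280418, nat_lit 0, true), (nat_lit 27643837502244819664672106248976567, nat_lit 14676119, false)], nat_lit 1137116181452698004682211669370994900, nat_lit 984818244535754528103367375097959654)]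
def LL : ℕ := nat_lit 212191541663142421723833382538211153668676386033716406659192490567607160685201196998463791057380368755807176013761972414038641073856900109790773426771502959429796873715892317106347737922863861226168524658344434038594344286045123907775594466909051318206544395407923151483248939780216118767168408559039591083394296173096758243693371727281523257806262411211026627690798800169378048975635612413406242208449130973052431022217596909899814269101145596186879761624539874306467534922105117003448928656644551081013291433418151344304145924228084621718664501240408625726900191867228646821076336653019081885020777165869726084053320142993889053218358295534397186836965412998952629677899756333179309361904096816437211500537386071067280409959051767026157534057832414086306002990357115869063954369818221223704456274977021593482478679167350500924312381323627061627799950838891880809727672833969741494245583457434041994498761036012527821652406265640298130638463835725191683950130989039642403340913030046658057363390008272625170689787637617377375272825913913874419962061191770704770519164053050010124712731805570371436599844665281929983056958491222650058189079922406276981706623741962233413247623278016322631770897872721545170096824850870379103750459392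
def blks : List ℕ := [nat_lit 21203458854780635185997337547865920826504626520576302603909085998174175234, nat_lit 13908627270757494071314879914771771309768013920604462455907386673184, nat_lit 1865790500405976262840113655502041333703458786522289914388349284337598889984, nat_lit 230587352291572102606025128857596869131282159986710862496812790694165872704, nat_lit 1685411457605653738770699111956961842163066684869216301623585804288, nat_lit 20221200154798636721745410824509487297466354827065881231198414487554, nat_lit 14666322881240238304949155719697160085100305555424684496423128706060288, nat_lit 233223812550746938651076595342004600136355860297140529269840779421471997984, nat_lit 70673884697381206554475823983295809675642052979407763438651410963413073984, nat_lit 1813668943354158188752789841766652218908408413912199140503880073848905795584]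
def SP : List (ℕ × ℕ) := [(nat_lit 0, nat_lit 3150858910311745638317572730080710985337652928985868304512), (nat_lit 2, nat_lit 3126243573375236196199785873221021245151732109993303834495), (nat_lit 3, nat_lit 3175474247248255080435359586940400725523573739182339752321)]

theorem bas : basChk ws us 8 (nat_lit 664619068533544770747334646890102785) = true := by decide +kernel

theorem crd : Crd (centralizer {pC (perm r5A)}) (FixC (pC (perm r5A))) (2 ^ 8) (crdV us) (cmbV ws 8) :=
  crd_of_chk (n := 2) r5A_in.perm_mem rfl bas (by rw [r5A_in.code_perm]; decide +kernel)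

theorem card_CM_le : Nat.card (CM (perm r5A)) ≤ 60 :=
  (card_CM5 (by rw [apply_pt _ (by norm_num), r5A_in.code_perm]; decide +kernel)
    (by rw [apply_pt _ (by norm_num), r5A_in.code_perm]; decide +kernel)
    (by rw [apply_pt _ (by norm_num), r5A_in.code_perm]; decide +kernel)
    (by rw [apply_pt _ (by norm_num), r5A_in.code_perm]; decide +kernel)).trans (by
      rw [card_moved r5A_in.code_perm, r5A_in.code_perm, mask_empty]
      decide +kernel)

theorem gens_in : ∀ c ∈ gens, InH (CM (perm r5A)) c := inCM_of (by rw [r5A_in.code_perm]; decide +kernel)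

theorem lb_CM : 60 ≤ chainLB [(nat_lit 0, nat_lit 4, [[nat_lit 0, nat_lit 0, nat_lit 0, nat_lit 0, nat_lit 0]]), (nat_lit 4, nat_lit 2, [])] gens := by decide +kernel

theorem card_CM : Nat.card (CM (perm r5A)) = 60 := card_CM_le.antisymm (lb_CM.trans (chainLB_le _ gens_in))

theorem CM_le : CM (perm r5A) ≤ gen gens := le_gen_of_chainLB _ gens_in (card_CM_le.trans lb_CM)

theorem fc : fcChk (code (perm r5A)) FB 16 = true := by rw [r5A_in.code_perm]; decide +kernel

theorem hD : ∀ d ∈ DD, genChk (code (perm r5A)) ws us 8 d.1 d.2.1 = true := by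
  rw [r5A_in.code_perm]
  exact allL_eq_true.1 (by decide +kernel)

theorem bfs : bfsChk (DD.map (·.2.1)) (nat_lit 1 :: SP.map (·.1)) LL 8 = true := by decide +kernel

def cert : List (ℕ × ℕ × List (List ℕ)) := [(nat_lit 0, nat_lit 1, [[nat_lit 3, nat_lit 4, nat_lit 3, nat_lit 5], [nat_lit 7, nat_lit 4, nat_lit 7, nat_lit 5]]), (nat_lit 5, nat_lit 3, [[nat_lit 0, nat_lit 0, nat_lit 1, nat_lit 1, nat_lit 0, nat_lit 0, nat_lit 1], [nat_lit 0, nat_lit 1, nat_lit 0, nat_lit 1, nat_lit 1, nat_lit 0, nat_lit 0, nat_lit 1, nat_lit 1, nat_lit 1]]), (nat_lit 1, nat_lit 2, [[nat_lit 0, nat_lit 1, nat_lit 0, nat_lit 0, nat_lit 1, nat_lit 0], [nat_lit 1, nat_lit 1, nat_lit 0, nat_lit 0]]), (nat_lit 6, nat_lit 2, [[nat_lit 1, nat_lit 0, nat_lit 0, nat_lit 1, nat_lit 0, nat_lit 1, nat_lit 0], [nat_lit 0, nat_lit 1, nat_lit 0]]), (nat_lit 2, nat_lit 2, [[nat_lit 0]]), (nat_lit 7, nat_lit 2, [])]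

theorem lb_cert : chainLB cert (DD.map (·.2.2)) = 7200 := by decide +kernel

theorem mem1 (a b : Perm (Fin 5)) (ha : Perm.sign a = 1) (hb : Perm.sign b = 1) :
    Perm.sumCongr a b ∈ alternatingFiveWreathTwo :=
  subset_closure (Or.inl ⟨⟨a, ha⟩, ⟨b, hb⟩, rfl⟩)

theorem mem2 : Equiv.sumComm (Fin 5) (Fin 5) ∈ alternatingFiveWreathTwo := subset_closure (Or.inr rfl)

def ix : Fin 5 ⊕ Fin 5 → ℕ := Sum.elim Fin.val fun i => 5 + i.val

theorem hY : ∀ d ∈ DD, ∃ y, ∀ i, ix (alternatingFiveWreathTwo.subtype y i) = dig d.2.2 (ix i) := by
  simp only [DD, List.forall_mem_cons]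
  exact ⟨⟨⟨_, mul_mem (mem1 (⟨![0, 1, 4, 2, 3], ![0, 1, 3, 4, 2], by decide, by decide⟩ : Perm (Fin 5)) (⟨![0, 1, 3, 4, 2], ![0, 1, 4, 2, 3], by decide, by decide⟩ : Perm (Fin 5)) (by decide +kernel) (by decide +kernel)) mem2⟩, by decide +kernel⟩, ⟨⟨_, mul_mem (mem1 (⟨![0, 2, 3, 1, 4], ![0, 3, 1, 2, 4], by decide, by decide⟩ : Perm (Fin 5)) (⟨![0, 3, 1, 2, 4], ![0, 2, 3, 1, 4], by decide, by decide⟩ : Perm (Fin 5)) (by decide +kernel) (by decide +kernel)) mem2⟩, by decide +kernel⟩, ⟨⟨_, mul_mem (mem1 (⟨![0, 3, 2, 4, 1], ![0, 4, 2, 1, 3], by decide, by decide⟩ : Perm (Fin 5)) (⟨![0, 4, 2, 1, 3], ![0, 3, 2, 4, 1], by decide, by decide⟩ : Perm (Fin 5)) (by decide +kernel) (by decide +kernel)) mem2⟩, by decide +kernel⟩, ⟨⟨_, mul_mem (mem1 (⟨![0, 4, 1, 3, 2], ![0, 2, 4, 3, 1], by decide, by decide⟩ : Perm (Fin 5)) (⟨![0, 2, 4, 3, 1], ![0, 4, 1, 3, 2], by decide, by decide⟩ : Perm (Fin 5)) (by decide +kernel) (by decide +kernel)) mem2⟩, by decide +kernel⟩, ⟨⟨_, mem1 (⟨![0, 4, 1, 3, 2], ![0, 2, 4, 3, 1], by decide, by decide⟩ : Perm (Fin 5)) (⟨![0, 2, 3, 1, 4], ![0, 3, 1, 2, 4],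 by decide, by decide⟩ : Perm (Fin 5)) (by decide +kernel) (by decide +kernel)⟩, by decide +kernel⟩, ⟨⟨_, mem1 (⟨![0, 4, 3, 2, 1], ![0, 4, 3, 2, 1], by decide, by decide⟩ : Perm (Fin 5)) (⟨![0, 3, 4, 1, 2], ![0, 3, 4, 1, 2], by decide, by decide⟩ : Perm (Fin 5)) (by decide +kernel) (by decide +kernel)⟩, by decide +kernel⟩, ⟨⟨_, mem1 (⟨![0, 1, 4, 2, 3], ![0, 1, 3, 4, 2], by decide, by decide⟩ : Perm (Fin 5)) (⟨![0, 2, 4, 3, 1], ![0, 4, 1, 3, 2], by decide, by decide⟩ : Perm (Fin 5)) (by decide +kernel) (by decide +kernel)⟩, by decide +kernel⟩, ⟨⟨_, mul_mem (mem1 (⟨![1, 2, 0, 3, 4], ![2, 0, 1, 3, 4], by decide, by decide⟩ : Perm (Fin 5)) (⟨![1, 2, 0, 3, 4], ![2, 0, 1, 3, 4], by decide, by decide⟩ : Perm (Fin 5)) (by decide +kernel) (by decide +kernel)) mem2⟩, by decide +kernel⟩, by simp⟩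

theorem card_Y : Nat.card alternatingFiveWreathTwo ≤ 7200 := by
  let s : Perm (Fin 5 ⊕ Fin 5) := Equiv.sumComm (Fin 5) (Fin 5)
  have hs : ∀ a b : Perm (Fin 5), s * Perm.sumCongr a b = Perm.sumCongr b a * s := fun a b => by
    ext1 x
    cases x <;> rfl
  have hs2 : s * s = 1 := by
    ext1 x
    cases x <;> rfl
  let F : alternatingGroup (Fin 5) × alternatingGroup (Fin 5) × Bool → Perm (Fin 5 ⊕ Fin 5) := fun x =>
    Perm.sumCongr x.1.1 x.2.1.1 * cond x.2.2 s 1
  have key : ∀ y ∈ alternatingFiveWreathTwo, ∃ x, F x = y := by
    intro y hy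
    induction hy using closure_induction_left with
    | one => exact ⟨(1, 1, false), by simp [F]⟩
    | mul_left x hx y _ ih =>
      obtain ⟨⟨a, b, e⟩, rfl⟩ := ih
      rcases hx with ⟨c, d, rfl⟩ | rfl
      · exact ⟨(c * a, d * b, e), by simp only [F, coe_mul, ← mul_assoc, Perm.sumCongr_mul]⟩
      · refine ⟨(b, a, !e), ?_⟩
        show _ = s * (Perm.sumCongr a.1 b.1 * cond e s 1)
        rw [← mul_assoc, hs, mul_assoc]
        cases e
        · exact congrArg (Perm.sumCongr b.1 a.1 * ·) (mul_one s).symm
        · exact congrArg (Perm.sumCongr b.1 a.1 * ·) hs2.symm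
    | inv_mul_cancel x hx y _ ih =>
      obtain ⟨⟨a, b, e⟩, rfl⟩ := ih
      rcases hx with ⟨c, d, rfl⟩ | rfl
      · exact ⟨(c⁻¹ * a, d⁻¹ * b, e), by
          simp only [F, coe_mul, coe_inv, ← mul_assoc, Perm.sumCongr_inv, Perm.sumCongr_mul]⟩
      · refine ⟨(b, a, !e), ?_⟩
        show _ = s * (Perm.sumCongr a.1 b.1 * cond e s 1)
        rw [← mul_assoc, hs, mul_assoc]
        cases e
        · exact congrArg (Perm.sumCongr b.1 a.1 * ·) (mul_one s).symm
        · exact congrArg (Perm.sumCongr b.1 a.1 * ·) hs2.symm
  choose g hg using key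
  have := Nat.card_le_card_of_injective (fun y : alternatingFiveWreathTwo => g y.1 y.2) fun a b e =>
    Subtype.ext (by rw [← hg a.1 a.2, ← hg b.1 b.2]; exact congrArg F e)
  rwa [Nat.card_prod, Nat.card_prod, nat_card_alternatingGroup, Nat.card_eq_fintype_card (α := Fin 5),
    Nat.card_eq_fintype_card (α := Bool)] at this

theorem main : ∃ f : centralizer ({pC (perm r5A)} : Set Co0) →* alternatingFiveWreathTwo, Function.Surjective f ∧
    (∀ h, f h = 1 ↔ InK (pC (perm r5A)) h) ∧
    (∀ h ∈ centralizer ({pC (perm r5A)} : Set Co0), (∀ v ∈ Λ, FixC (pC (perm r5A)) v → FixC h v) →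
      InK (pC (perm r5A)) h) ∧ ∀ T : Subgroup (alternatingFiveWreathTwo), T.Normal → IsPGroup 2 T → T = ⊥ :=
  cent_main (p := 5) (n := 10) (nO := 75) (blks := blks) r5A_in.perm_mem (by decide) order crd bas fc CM_le card_CM_le
    (by decide +kernel) (by decide +kernel) DD (by decide +kernel) (by decide +kernel) hD (by decide +kernel)
    (by decide +kernel) bfs (by decide +kernel) (hroots_of crd (fixC_e8 r5A_in.perm_mem) (short_roots crd (fixC_e8 r5A_in.perm_mem) (by decide +kernel)))
    (by decide +kernel) (by norm_num) _ (subtype_injective _) ix (by norm_num) (by decide +kernel) (by decide +kernel)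
    (by decide +kernel) hY cert (by rw [lb_cert]; exact card_Y) (by rw [lb_cert])

end

end CA.M24.Hara

theorem CA.M24.realizeEqnsHara : True := by
  have := @CA.M24.Hara.LL.eq_1
  have := @CA.M24.Hara.LL.eq_def
  have := @CA.M24.Hara.LL.congr_simp
  have := @CA.M24.Hara.blks.eq_1
  have := @CA.M24.Hara.blks.eq_def
  have := @CA.M24.Hara.blks.congr_simp
  have := @CA.M24.Hara.cert.eq_1
  have := @CA.M24.Hara.cert.eq_def
  have := @CA.M24.Hara.cert.congr_simp
  have := @CA.M24.Hara.SP.eq_1
  have := @CA.M24.Hara.SP.eq_def
  have := @CA.M24.Hara.SP.congr_simp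
  have := @CA.M24.Hara.FB.eq_1
  have := @CA.M24.Hara.FB.eq_def
  have := @CA.M24.Hara.FB.congr_simp
  have := @CA.M24.Hara.DD.eq_1
  have := @CA.M24.Hara.DD.eq_def
  have := @CA.M24.Hara.DD.congr_simp
  have := @CA.M24.Hara.ws.eq_1
  have := @CA.M24.Hara.ws.eq_def
  have := @CA.M24.Hara.ws.congr_simp
  have := @CA.M24.Hara.us.eq_1
  have := @CA.M24.Hara.us.eq_def
  have := @CA.M24.Hara.us.congr_simp
  have := @CA.M24.Hara.gens.eq_1
  have := @CA.M24.Hara.gens.eq_def
  have := @CA.M24.Hara.gens.congr_simp
  have := @CA.M24.Hara.ix.eq_1
  have := @CA.M24.Hara.ix.eq_def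
  have := @CA.M24.Hara.ix.congr_simp
  trivial
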