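import Cfsg.Agent.M24.Words
import Cfsg.Agent.M24.Enum

/-! The stabiliser of a dodecad is sharply 5-transitive on it. -/

set_option autoImplicit false
set_option maxRecDepth 100000

namespace CA.M24

open Cfsg Equiv
open scoped Pointwise symmDiff

noncomputable section

theorem inv_app (g : Perm Pt) (x : Pt) : g⁻¹ (g x) = x := g.symm_apply_apply x

theorem app_inv (g : Perm Pt) (x : Pt) : g (g⁻¹ x) = x := g.apply_symm_apply x

theorem pt5_inj : Function.Injective fun i : Fin 5 => pt i := by decide +kernel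

theorem eq_one_D0 {g : Perm Pt} (hg : g ∈ St (unmask D0)) (h : ∀ i : Fin 5, g (pt i) = pt i) : g = 1 :=
  eq_one_of_fix5_set (a := 0) (b := 1) (c := 2) (d := 3) (e := 4) (m := D0) (by decide +kernel) (by decide)
    (by decide) (by decide) hg.1 (by
      simp only [List.mem_cons, List.not_mem_nil, or_false, forall_eq_or_imp, forall_eq]
      exact ⟨h 0, h 1, h 2, h 3, h 4⟩) hg.2

theorem mem_of_St {d : Finset Pt} {g : Perm Pt} (hg : g ∈ St d) {p : Pt} : g p ∈ d ↔ p ∈ d := by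
  conv_lhs => rw [← show g • d = d from hg.2]
  exact Finset.smul_mem_smul_finset_iff g

theorem sharp_D0 (e : Fin 5 ↪ Pt) (he : ∀ i, e i ∈ unmask D0) :
    ∃ g ∈ St (unmask D0), ∀ i : Fin 5, g (pt i) = e i := by
  have h0 : ∀ i : Fin 5, pt i ∈ unmask D0 := by decide +kernel
  let φ : St (unmask D0) → (Fin 5 ↪ unmask D0) := fun g =>
    ⟨fun i => ⟨g.1 (pt i), (mem_of_St g.2).2 (h0 i)⟩,
      fun i j h => pt5_inj (g.1.injective (congrArg Subtype.val h))⟩
  have hb : Function.Bijective φ := by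
    rw [Nat.bijective_iff_injective_and_card]
    refine ⟨fun a b h => Subtype.ext (inv_mul_eq_one.1 (eq_one_D0 (mul_mem (inv_mem a.2) b.2) fun i => ?_)), ?_⟩
    · rw [Perm.mul_apply, Perm.inv_eq_iff_eq]
      exact (congrArg Subtype.val (DFunLike.congr_fun h i)).symm
    · rw [card_stab_dodecad D0_mem, Nat.card_eq_fintype_card, Fintype.card_embedding_eq, Fintype.card_coe,
        (mem_dodecads.1 D0_mem).2]
      decide
  obtain ⟨g, hg⟩ := hb.2 ⟨fun i => ⟨e i, he i⟩, fun i j h => e.injective (congrArg Subtype.val h)⟩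
  exact ⟨g, g.2, fun i => congrArg Subtype.val (DFunLike.congr_fun hg i)⟩

theorem to_base_dodecad {d : Finset Pt} (hd : d ∈ dodecads) (e : Fin 5 ↪ Pt) (he : ∀ i, e i ∈ d) :
    ∃ k ∈ M24, k • unmask D0 = d ∧ ∀ i : Fin 5, k (pt i) = e i := by
  obtain ⟨k, hk, rfl⟩ := dodecad_transitive D0_mem hd
  obtain ⟨g, hg, h⟩ := sharp_D0 (e.trans k⁻¹.toEmbedding) fun i => Finset.inv_smul_mem_iff.2 (he i)
  refine ⟨k * g, mul_mem hk hg.1, by rw [mul_smul, show g • unmask D0 = _ from hg.2], fun i => ?_⟩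
  rw [Perm.mul_apply, h]
  simp

theorem exists_emb5 {s d : Finset Pt} (hs : s ⊆ d) (h5 : s.card ≤ 5) (hd : 5 ≤ d.card) :
    ∃ e : Fin 5 ↪ Pt, (∀ i, e i ∈ d) ∧ ∀ x ∈ s, ∃ i, e i = x := by
  obtain ⟨t, h1, h2, ht⟩ := Finset.exists_subsuperset_card_eq hs h5 hd
  exact ⟨(Finset.equivFinOfCardEq ht).symm.toEmbedding.trans (Function.Embedding.subtype _),
    fun i => h2 ((Finset.equivFinOfCardEq ht).symm i).2,
    fun x hx => ⟨Finset.equivFinOfCardEq ht ⟨x, h1 hx⟩, by simp⟩⟩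

theorem eq_one_dodecad {d : Finset Pt} (hd : d ∈ dodecads) {g : Perm Pt} (hg : g ∈ St d) {s : Finset Pt}
    (hs : s ⊆ d) (h5 : 5 ≤ s.card) (h : ∀ p ∈ s, g p = p) : g = 1 := by
  obtain ⟨e, he, -⟩ := exists_emb5 (Finset.empty_subset s) (by simp) h5
  obtain ⟨k, hk, rfl, h1⟩ := to_base_dodecad hd e fun i => hs (he i)
  refine eq_one_of_conj (eq_one_D0 (conj_mem_St' hk hg) fun i => ?_)
  rw [Perm.mul_apply, Perm.mul_apply, h1, h _ (he i), Perm.inv_eq_iff_eq, h1]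

theorem exists_agree_dodecad {d : Finset Pt} (hd : d ∈ dodecads) (σ : Perm Pt) (hσ : ∀ x ∈ d, σ x ∈ d)
    {s : Finset Pt} (hs : s ⊆ d) (h5 : s.card ≤ 5) : ∃ g ∈ St d, ∀ x ∈ s, g x = σ x := by
  obtain ⟨e, he, he'⟩ := exists_emb5 hs h5 (by rw [(mem_dodecads.1 hd).2]; norm_num)
  obtain ⟨k, hk, e1, h1⟩ := to_base_dodecad hd e he
  obtain ⟨k', hk', e2, h2⟩ := to_base_dodecad hd (e.trans σ.toEmbedding) fun i => hσ _ (he i)
  refine ⟨k' * k⁻¹, ⟨M24.mul_mem hk' (M24.inv_mem hk), ?_⟩, fun x hx => ?_⟩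
  · show (k' * k⁻¹) • d = d
    rw [mul_smul, ← e1, inv_smul_smul, e2, e1]
  · obtain ⟨i, rfl⟩ := he' x hx
    rw [Perm.mul_apply, ← h1, inv_app, h2, h1]
    rfl

theorem equiv_perm_of_full {K : Type*} [Group K] (f : K →* Perm Pt) (s : Finset Pt)
    {n : ℕ} (hs : s.card = n) (h1 : ∀ g, f g • s = s) (h2 : ∀ g, (∀ p ∈ s, f g p = p) → g = 1)
    (h3 : ∀ σ : Perm Pt, (∀ p, σ p ∈ s ↔ p ∈ s) → ∃ g, ∀ p ∈ s, f g p = σ p) :
    Nonempty (K ≃* Perm (Fin n)) := by
  have hmem : ∀ (g : K) (x : Pt), x ∈ s ↔ f g x ∈ s := fun g x => by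
    conv_rhs => rw [← h1 g]
    exact (Finset.smul_mem_smul_finset_iff (f g)).symm
  let φ : K →* Perm s :=
    { toFun := fun g => (f g).subtypePerm fun x => (hmem g x).symm
      map_one' := Equiv.ext fun x => Subtype.ext (by simp)
      map_mul' := fun a b => Equiv.ext fun x => Subtype.ext (by
        change f (a * b) x = f a (f b x)
        rw [map_mul, Perm.mul_apply]) }
  have hinj : Function.Injective φ := by
    rw [injective_iff_map_eq_one]
    intro g hg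
    exact h2 g fun p hp => congrArg Subtype.val (DFunLike.congr_fun hg (⟨p, hp⟩ : s))
  have hsurj : Function.Surjective φ := fun τ => by
    obtain ⟨g, hg⟩ := h3 (Perm.ofSubtype τ) fun p => Perm.ofSubtype_apply_mem_iff_mem τ p
    exact ⟨g, Equiv.ext fun x => Subtype.ext ((hg x x.2).trans (Perm.ofSubtype_apply_coe τ x))⟩
  exact ⟨(MulEquiv.ofBijective φ ⟨hinj, hsurj⟩).trans (Finset.equivFinOfCardEq hs).permCongrHom⟩

/-- a permutation preserving a finite set and agreeing with another one off one point -/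
theorem agree_of_erase {g σ : Perm Pt} {s : Finset Pt} {a : Pt} (hg : ∀ p, g p ∈ s ↔ p ∈ s)
    (hσ : ∀ p, σ p ∈ s ↔ p ∈ s) (h : ∀ p ∈ s.erase a, g p = σ p) : ∀ p ∈ s, g p = σ p := by
  intro p hp
  by_cases e : p = a
  · subst e
    by_contra hne
    have h1 : σ⁻¹ (g p) ∈ s := (hσ _).1 (by rw [app_inv]; exact (hg p).2 hp)
    have h2 : σ⁻¹ (g p) ≠ p := fun e => hne (Perm.inv_eq_iff_eq.1 e)
    have := h _ (Finset.mem_erase.2 ⟨h2, h1⟩)
    rw [app_inv] at this
    exact h2 (g.injective this)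
  · exact h p (Finset.mem_erase.2 ⟨e, hp⟩)

end

end CA.M24
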