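import Cfsg.Agent.M24.Cent3
import Cfsg.Agent.Orth.Refl3
import Cfsg.Agent.Unit.Six

/-! The sum of six squares over the field with three elements. -/

set_option autoImplicit false
set_option maxRecDepth 100000

namespace CA.M24.O6

open Cfsg Subgroup Cfsg.Agent.Orth Cfsg.Agent.Lin QuadraticMap Module

noncomputable section

abbrev V6 : Type := Fin 6 → ZMod 3

def Q6 : QuadraticForm (ZMod 3) V6 := ∑ j : Fin 6, QuadraticMap.sq.comp (LinearMap.proj j)

theorem Q6_apply (v : V6) : Q6 v = ∑ j, v j * v j := by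
  rw [Q6, QuadraticMap.sum_apply]
  rfl

theorem polar_Q6 (v w : V6) : polar Q6 v w = -∑ j, v j * w j := by
  rw [polar, Q6_apply, Q6_apply, Q6_apply, ← Finset.sum_sub_distrib, ← Finset.sum_sub_distrib,
    ← Finset.sum_neg_distrib]
  refine Finset.sum_congr rfl fun j _ => ?_
  rw [Pi.add_apply]
  generalize v j = a
  generalize w j = b
  have h3 : (3 : ZMod 3) = 0 := rfl
  linear_combination (a * b) * h3

theorem fact9 : Fact (∀ r : ZMod 3, r ^ 2 ≠ -1 + 0 * r) := ⟨by decide⟩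

attribute [local instance] fact9

abbrev K9 : Type := QuadraticAlgebra (ZMod 3) (-1) 0

def phi : V6 ≃ₗ[ZMod 3] (Fin 2 → ZMod 3) × (Fin 2 → ZMod 3) × K9 where
  toFun v := (![v 0 - v 2 - v 3, v 1 - v 2 + v 3], ![v 0 + v 2 + v 3, v 1 + v 2 - v 3], ⟨v 4, v 5⟩)
  invFun x := ![-(x.1 0 + x.2.1 0), -(x.1 1 + x.2.1 1), -(x.1 0 - x.2.1 0 + (x.1 1 - x.2.1 1)),
    -(x.1 0 - x.2.1 0 - (x.1 1 - x.2.1 1)), x.2.2.re, x.2.2.im]
  map_add' v w := by
    refine Prod.ext ?_ (Prod.ext ?_ rfl) <;> funext i <;> fin_cases i <;> simp <;> ring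
  map_smul' c v := by
    refine Prod.ext ?_ (Prod.ext ?_ rfl) <;> funext i <;> fin_cases i <;> simp <;> ring
  left_inv v := by
    have h3 : (3 : ZMod 3) = 0 := rfl
    funext i
    fin_cases i
    · show -(v 0 - v 2 - v 3 + (v 0 + v 2 + v 3)) = v 0
      linear_combination (-v 0) * h3
    · show -(v 1 - v 2 + v 3 + (v 1 + v 2 - v 3)) = v 1
      linear_combination (-v 1) * h3
    · show -(v 0 - v 2 - v 3 - (v 0 + v 2 + v 3) + (v 1 - v 2 + v 3 - (v 1 + v 2 - v 3))) = v 2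
      linear_combination (v 2) * h3
    · show -(v 0 - v 2 - v 3 - (v 0 + v 2 + v 3) - (v 1 - v 2 + v 3 - (v 1 + v 2 - v 3))) = v 3
      linear_combination (v 3) * h3
    · rfl
    · rfl
  right_inv x := by
    have h3 : (3 : ZMod 3) = 0 := rfl
    refine Prod.ext ?_ (Prod.ext ?_ rfl) <;> funext i <;> fin_cases i
    · show -(x.1 0 + x.2.1 0) - -(x.1 0 - x.2.1 0 + (x.1 1 - x.2.1 1)) - -(x.1 0 - x.2.1 0 - (x.1 1 - x.2.1 1)) = x.1 0
      linear_combination (-x.2.1 0) * h3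
    · show -(x.1 1 + x.2.1 1) - -(x.1 0 - x.2.1 0 + (x.1 1 - x.2.1 1)) + -(x.1 0 - x.2.1 0 - (x.1 1 - x.2.1 1)) = x.1 1
      linear_combination (-x.2.1 1) * h3
    · show -(x.1 0 + x.2.1 0) + -(x.1 0 - x.2.1 0 + (x.1 1 - x.2.1 1)) + -(x.1 0 - x.2.1 0 - (x.1 1 - x.2.1 1)) =
        x.2.1 0
      linear_combination (-x.1 0) * h3
    · show -(x.1 1 + x.2.1 1) + -(x.1 0 - x.2.1 0 + (x.1 1 - x.2.1 1)) - -(x.1 0 - x.2.1 0 - (x.1 1 - x.2.1 1)) =
        x.2.1 1
      linear_combination (-x.1 1) * h3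

theorem phi_Q (v : V6) : hsum 2 (normQ (-1 : ZMod 3) 0) (phi v) = Q6 v := by
  have h3 : (3 : ZMod 3) = 0 := rfl
  rw [hsum_apply, Q6_apply, Fin.sum_univ_two, Fin.sum_univ_six, normQ_apply, QuadraticAlgebra.norm_def]
  show (v 0 - v 2 - v 3) * (v 0 + v 2 + v 3) + (v 1 - v 2 + v 3) * (v 1 + v 2 - v 3) +
    (v 4 * v 4 + 0 * v 4 * v 5 - -1 * v 5 * v 5) = _
  linear_combination (-v 2 * v 2 - v 3 * v 3) * h3

theorem nondeg : Nondeg Q6 :=
  Nondeg.congr phi phi_Q (Nondeg.hsum (nondeg_normQ ⟨⟨0, 1⟩, by decide⟩) 2)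

theorem five_le : 5 ≤ finrank (ZMod 3) V6 := by simp

theorem card_OG : Nat.card (OG Q6) = 26127360 := by
  rw [Nat.card_congr (OG.congr phi phi_Q).toEquiv, card_OG_minus, ZMod.card]
  decide

theorem card_RR : Nat.card (RR Q6 1) = 13063680 := by
  have := (RR Q6 1).card_mul_index
  rw [index_RR nondeg five_le one_ne_zero, card_OG] at this
  omega

theorem comm_eq : commutator (OG Q6) = EE Q6 := nondeg.commutator_eq_EE_of_finite five_le

theorem card_comm : Nat.card (commutator (OG Q6)) = 6531840 := by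
  obtain ⟨e, f, h⟩ := nondeg.exists_HP_of_finite (by simp)
  have := (commutator (OG Q6)).card_mul_index
  rw [index_commutator nondeg five_le h comm_eq, if_neg (by decide), card_OG] at this
  omega

theorem comm_le : commutator (OG Q6) ≤ RR Q6 1 := comm_eq ▸ EE_le_RR nondeg five_le (by decide) one_ne_zero

theorem negOne_mem : negOne Q6 ∈ commutator (OG Q6) := by
  have h1 := (negOne_mem_minus (F := ZMod 3) (a := -1) (b := 0) (m := 2) le_rfl (by decide)).2 (by decide)
  rw [← map_commutator_equiv (OG.congr phi phi_Q)] at h1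
  obtain ⟨g, hg, e⟩ := h1
  have : g = negOne Q6 := OG.ext fun v => phi.injective (by
    rw [← OG.congr_apply phi phi_Q g v, show OG.congr phi phi_Q g = _ from e, negOne_apply, negOne_apply, map_neg])
  exact this ▸ hg

theorem orderOf_negOne : orderOf (negOne Q6) = 2 := by
  obtain ⟨e, f, h⟩ := nondeg.exists_HP_of_finite (by simp)
  exact orderOf_eq_prime (OG.ext fun v => by rw [pow_two, OG.mul_apply, negOne_apply, negOne_apply, neg_neg]; rfl)
    fun e => absurd ((negOne_eq_one_iff h).1 e) (by decide)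

theorem mem_Z {g : OG Q6} : g ∈ zpowers (negOne Q6) ↔ g = 1 ∨ g = negOne Q6 :=
  CA.Fi.mem_zpowers_iff_of_sq (by rw [← pow_two, ← orderOf_negOne, pow_orderOf_eq_one])

theorem normal_Z : (zpowers (negOne Q6)).Normal := ⟨fun n hn g => by
  rcases mem_Z.1 hn with rfl | rfl
  · simp
  · rw [negOne_comm, mul_inv_cancel_right]
    exact mem_zpowers _⟩

attribute [local instance] normal_Z

theorem equiv_PSU : Nonempty ((commutator (OG Q6)).map (QuotientGroup.mk' (zpowers (negOne Q6))) ≃* PSU 4 K9 3) := by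
  obtain ⟨e1⟩ := Cfsg.Agent.Unit.nonempty_POmega_six_minus (F := ZMod 3) (a := -1) (b := 0)
  rw [ZMod.card] at e1
  obtain ⟨e, f, h⟩ := nondeg.exists_HP_of_finite (by simp)
  have hs := (QuotientGroup.mk' (zpowers (negOne Q6))).subgroupMap_surjective (commutator (OG Q6))
  have hk : ((QuotientGroup.mk' (zpowers (negOne Q6))).subgroupMap (commutator (OG Q6))).ker =
      center (commutator (OG Q6)) := by
    ext g
    rw [MonoidHom.mem_ker, Subtype.ext_iff]
    refine ((QuotientGroup.eq_one_iff g.1).trans mem_Z).trans ?_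
    revert g
    rw [comm_eq]
    exact fun g => (mem_center_EE nondeg (by simp) h).symm
  exact ⟨(QuotientGroup.quotientKerEquivOfSurjective _ hs).symm.trans ((QuotientGroup.quotientMulEquivOfEq hk).trans
    ((quotCenterCongr (commutatorCongr (OG.congr phi phi_Q))).trans e1))⟩

theorem card_map_Z {K : Subgroup (OG Q6)} (h : negOne Q6 ∈ K) :
    2 * Nat.card (K.map (QuotientGroup.mk' (zpowers (negOne Q6)))) = Nat.card K := by
  rw [← card_eq_ker_mul_map (QuotientGroup.mk' (zpowers (negOne Q6))) K, QuotientGroup.ker_mk',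
    inf_eq_left.2 (zpowers_le.2 h), Nat.card_zpowers, orderOf_negOne]

/-! ### Codes -/

def dec3 (a : ℕ) : V6 := fun j => (pick a 2 3 j.val : ZMod 3)

def enc3 (v : V6) : ℕ :=
  (v 0).val + 4 * (v 1).val + 16 * (v 2).val + 64 * (v 3).val + 256 * (v 4).val + 1024 * (v 5).val

def app (M : ℕ) (v : V6) : V6 := fun i => ∑ j : Fin 6, (pick M 2 3 (6 * i.val + j.val) : ZMod 3) * v j

def appChk (M a b : ℕ) : Bool :=
  allR (fun i => Nat.beq (Nat.mod (sumR (fun j => Nat.mul (pick M 2 3 (6 * i + j)) (pick a 2 3 j)) 6) 3)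
    (Nat.mod (pick b 2 3 i) 3)) 6

theorem appChk_spec {M a b : ℕ} (h : appChk M a b = true) : app M (dec3 a) = dec3 b := by
  funext i
  have := beq_iff.1 (allR_eq_true.1 h i i.2)
  rw [sumR_eq, ← Fin.sum_univ_eq_sum_range (fun j => Nat.mul (pick M 2 3 (6 * i + j)) (pick a 2 3 j))] at this
  have h2 := (ZMod.natCast_eq_natCast_iff' _ _ 3).2 this
  rw [Nat.cast_sum] at h2
  exact (Finset.sum_congr rfl fun j _ => (Nat.cast_mul _ _).symm).trans h2

def reach (Ms : List ℕ) (l : List (ℕ × ℕ × ℕ)) : ℕ → ℕ :=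
  List.rec (motive := fun _ => ℕ → ℕ) (fun s => s) (fun r _ ih s =>
    force (bif' (band (band (memL r.1 Ms) (tb s r.2.1)) (appChk r.1 r.2.1 r.2.2))
      (Nat.lor s (Nat.shiftLeft 1 r.2.2)) s) ih) l

theorem reach_spec {Ms : List ℕ} (A : V6 → Prop) (hA : ∀ M ∈ Ms, ∀ v, A v → A (app M v))
    (l : List (ℕ × ℕ × ℕ)) (s : ℕ) (hs : ∀ a, tb s a = true → A (dec3 a)) :
    ∀ a, tb (reach Ms l s) a = true → A (dec3 a) := by
  induction l generalizing s with
  | nil => exact hs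
  | cons r l ih =>
    show ∀ a, tb (force _ (reach Ms l)) a = true → _
    rw [force_eq]
    refine ih _ fun a ha => ?_
    rw [bif'_eq] at ha
    split_ifs at ha with h
    · rw [band_eq_true, band_eq_true, memL_eq_true] at h
      rw [tb_eq_true] at ha
      change (s ||| 1 <<< r.2.2).testBit a = true at ha
      rw [Nat.testBit_or, Bool.or_eq_true, Nat.one_shiftLeft, Nat.testBit_two_pow, decide_eq_true_eq,
        ← tb_eq_true] at ha
      rcases ha with ha | rfl
      · exact hs a ha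
      · exact appChk_spec h.2 ▸ hA _ h.1.1 _ (hs _ h.1.2)
    · exact hs a ha

theorem forall_norm_one {s : ℕ} (h : ∀ a b c d e f : ZMod 3, a * a + b * b + c * c + d * d + e * e + f * f = 1 →
    tb s (enc3 ![a, b, c, d, e, f]) = true ∧ dec3 (enc3 ![a, b, c, d, e, f]) = ![a, b, c, d, e, f])
    {v : V6} (hv : Q6 v = 1) : ∃ a, tb s a = true ∧ dec3 a = v := by
  rw [Q6_apply, Fin.sum_univ_six] at hv
  have : ![v 0, v 1, v 2, v 3, v 4, v 5] = v := by
    funext i
    fin_cases i <;> rfl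
  exact ⟨_, this ▸ h _ _ _ _ _ _ hv⟩

end

end CA.M24.O6

theorem CA.M24.realizeEqnsO6 : True := by
  have := @CA.M24.O6.reach.eq_1
  have := @CA.M24.O6.reach.eq_def
  have := @CA.M24.O6.reach.congr_simp
  have := @CA.M24.O6.V6.eq_1
  have := @CA.M24.O6.V6.eq_def
  have := @CA.M24.O6.V6.congr_simp
  have := @CA.M24.O6.Q6.eq_1
  have := @CA.M24.O6.Q6.eq_def
  have := @CA.M24.O6.Q6.congr_simp
  have := @CA.M24.O6.appChk.eq_1
  have := @CA.M24.O6.appChk.eq_def
  have := @CA.M24.O6.appChk.congr_simp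
  have := @CA.M24.O6.app.eq_1
  have := @CA.M24.O6.app.eq_def
  have := @CA.M24.O6.app.congr_simp
  have := @CA.M24.O6.K9.eq_1
  have := @CA.M24.O6.K9.eq_def
  have := @CA.M24.O6.K9.congr_simp
  have := @CA.M24.O6.enc3.eq_1
  have := @CA.M24.O6.enc3.eq_def
  have := @CA.M24.O6.enc3.congr_simp
  have := @CA.M24.O6.phi.eq_1
  have := @CA.M24.O6.phi.eq_def
  have := @CA.M24.O6.phi.congr_simp
  have := @CA.M24.O6.dec3.eq_1
  have := @CA.M24.O6.dec3.eq_def
  have := @CA.M24.O6.dec3.congr_simp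
  trivial
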