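import Cfsg.Agent.M24.Misc
import Cfsg.Agent.M24.Enum
import Cfsg.Agent.Lin.Hol

/-! The centralizer of an involution fixing an octad. -/

set_option autoImplicit false

namespace CA.M24.OI

open Cfsg Cfsg.Agent Equiv Subgroup CA.Fi
open scoped Pointwise

noncomputable section

theorem core {G : Type*} [Group G] [Finite G] (U M : Subgroup G) (h2 : ∀ u ∈ U, u ^ 2 = 1) (hc : Nat.card U = 16)
    (hn : ∀ m ∈ M, ∀ u ∈ U, m * u * m⁻¹ ∈ U) (hf : ∀ m ∈ M, (∀ u ∈ U, m * u * m⁻¹ = u) → m = 1)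
    (hM : 20160 ≤ Nat.card M) {z : G} (hzU : z ∈ U) (hz1 : z ≠ 1)
    (hC : ∀ g, Commute g z → ∃ u ∈ U, ∃ m ∈ M, g = u * m) (Q : Subgroup G)
    (hQ : Q = (pCore 2 (centralizer ({z} : Set G))).map (centralizer ({z} : Set G)).subtype) :
    IsExtraspecial 2 Q ∧ Nat.card Q = 2 ^ 7 ∧ (∃ E : Subgroup G, E ≤ Q ∧ IsElementaryAbelian 2 E ∧ Nat.card E = 2 ^ 4) ∧
      IsLargeExtraspecial Q ∧ ∃ K : Subgroup G, K ≤ centralizer ({z} : Set G) ∧ Q ⊓ K = ⊥ ∧
        Q ⊔ K = centralizer ({z} : Set G) ∧ Nonempty (K ≃* Matrix.SpecialLinearGroup (Fin 3) (ZMod 2)) := by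
  classical
  have hi : ∀ u ∈ U, u⁻¹ = u := fun u hu => inv_eq_of_mul_eq_one_right (by rw [← sq, h2 u hu])
  have hU : IsElementaryAbelian 2 U := ⟨⟨⟨fun a b => Subtype.ext (by
    have := hi _ (mul_mem a.2 b.2)
    rw [mul_inv_rev, hi _ a.2, hi _ b.2] at this
    exact this.symm)⟩⟩, h2⟩
  have := hU.1
  letI : CommGroup U := { (inferInstance : Group U) with mul_comm := mul_comm' }
  letI : Module (ZMod 2) (Additive U) := AddCommGroup.zmodModule fun v =>
    Additive.toMul.injective (Subtype.ext (hU.2 _ (Additive.toMul v).2))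
  obtain ⟨e, he⟩ : ∃ e : (ZMod 2 × (Fin 3 → ZMod 2)) ≃ₗ[ZMod 2] Additive U,
      e (1, 0) = Additive.ofMul ⟨z, hzU⟩ := by
    have h1 := Module.natCard_eq_pow_finrank (K := ZMod 2) (V := Additive U)
    rw [Nat.card_zmod, Nat.card_congr Additive.toMul, hc, show 16 = 2 ^ 4 from rfl] at h1
    let e : (ZMod 2 × (Fin 3 → ZMod 2)) ≃ₗ[ZMod 2] Additive U := LinearEquiv.ofFinrankEq _ _ (by
      rw [← Nat.pow_right_injective le_rfl h1]; simp)
    obtain ⟨a, ha⟩ := Lin.exists_equiv_map (v := e (1, 0)) (w := Additive.ofMul ⟨z, hzU⟩) (by simp)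
      fun h => hz1 (congrArg (fun v => ((Additive.toMul v : U) : G)) h)
    exact ⟨e.trans a, ha⟩
  let ι : ZMod 2 × (Fin 3 → ZMod 2) → G := fun v => (Additive.toMul (e v) : U)
  have hι : ∀ v w, ι (v + w) = ι v * ι w := fun v w => by simp [ι]
  have hinj : Function.Injective ι := fun v w h => e.injective (Additive.toMul.injective (Subtype.ext h))
  have hs : ∀ u ∈ U, ∃ v, ι v = u := fun u hu => ⟨e.symm (Additive.ofMul ⟨u, hu⟩), by simp [ι]⟩
  have ex : ∀ m : M, ∃ a : (ZMod 2 × (Fin 3 → ZMod 2)) ≃ₗ[ZMod 2] (ZMod 2 × (Fin 3 → ZMod 2)),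
      ∀ v, m * ι v * (m : G)⁻¹ = ι (a v) := fun m => by
    choose f hf' using fun v => hs _ (hn m m.2 (ι v) (Additive.toMul (e v)).2)
    let F : ZMod 2 × (Fin 3 → ZMod 2) →+ ZMod 2 × (Fin 3 → ZMod 2) :=
      AddMonoidHom.mk' f fun v w => hinj (by rw [hι, hf', hf', hf', hι]; group)
    have hF : Function.Injective (F.toZModLinearMap 2) := fun v w h => hinj (by
      have h' : f v = f w := h
      have := (hf' v).symm.trans ((congrArg ι h').trans (hf' w))
      simpa using this)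
    exact ⟨LinearEquiv.ofInjectiveEndo _ hF, fun v => (hf' v).symm⟩
  choose ρ hρ using ex
  let R : M →* _ := MonoidHom.mk' ρ fun a b => LinearEquiv.ext fun v => hinj (by
    rw [← hρ, LinearEquiv.mul_apply, ← hρ, ← hρ]; simp [mul_assoc])
  have Ri : Function.Injective R := (injective_iff_map_eq_one R).2 fun m hm => Subtype.ext (hf m m.2 fun u hu => by
    obtain ⟨v, rfl⟩ := hs u hu
    rw [hρ, show ρ m = 1 from hm]; rfl)
  have hGL : Nat.card ((ZMod 2 × (Fin 3 → ZMod 2)) ≃ₗ[ZMod 2] (ZMod 2 × (Fin 3 → ZMod 2))) = 20160 := by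
    let c : (Fin 4 → ZMod 2) ≃ₗ[ZMod 2] (ZMod 2 × (Fin 3 → ZMod 2)) := LinearEquiv.ofFinrankEq _ _ (by simp)
    rw [← Nat.card_congr (⟨fun a => c.symm.trans (a.trans c), fun b => c.trans (b.trans c.symm),
      fun a => by ext1; simp, fun a => by ext1; simp⟩ : ((Fin 4 → ZMod 2) ≃ₗ[ZMod 2] (Fin 4 → ZMod 2)) ≃ _), ← Nat.card_congr (Lin.glEquiv (Fin 4) (ZMod 2)).toEquiv,
      Matrix.card_GL_field]
    simp [Fin.prod_univ_four]
  have : Finite ((ZMod 2 × (Fin 3 → ZMod 2)) ≃ₗ[ZMod 2] (ZMod 2 × (Fin 3 → ZMod 2))) :=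
    Nat.finite_of_card_ne_zero (by rw [hGL]; norm_num)
  let R' := MulEquiv.ofBijective R (Ri.bijective_of_nat_card_le (hGL ▸ hM))
  let σ := M.subtype.comp R'.symm.toMonoidHom
  have hσ : ∀ a v, σ a * ι v * (σ a)⁻¹ = ι (a v) := fun a v => by
    have := hρ (R'.symm a) v
    rwa [show ρ (R'.symm a) = a from R'.apply_symm_apply a] at this
  have hz : ι (1, 0) = z := by simp [ι, he]
  rw [← hz] at hQ hC ⊢
  obtain ⟨h1, h2', h3, K, k1, k2, k3, ⟨k4⟩⟩ := Lin.hol ι hι hinj σ hσ (fun g hg => by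
    obtain ⟨u, hu, m, hm, rfl⟩ := hC g hg
    obtain ⟨v, rfl⟩ := hs u hu
    exact ⟨v, R' ⟨m, hm⟩, by simp [σ]⟩) hQ
  have h7 : Nat.card Q = 2 ^ 7 := by rw [h2']; simp
  obtain ⟨a, ha⟩ := Lin.exists_equiv_map (v := ((1, 0) : ZMod 2 × (Fin 3 → ZMod 2))) (w := (0, 1))
    (by simp) (by decide)
  have hL := h1.large_of_conj (by rw [h7]; norm_num) (g := σ a) (by rw [hσ]; exact h3 _) (by
    rw [hσ, ha]; exact fun h => absurd (hinj h) (by decide))
  refine ⟨hL.1, h7, ⟨U, fun u hu => ?_, hU, hc⟩, hL, K, k1, k2, k3, ⟨k4.trans (Lin.slEquivTwo _).symm⟩⟩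
  obtain ⟨v, rfl⟩ := hs u hu
  exact h3 v

def UO : Subgroup M24 := fixingSubgroup M24 (unmask O0 : Set Pt)

def MO : Subgroup M24 := MulAction.stabilizer M24 (unmask O0) ⊓ MulAction.stabilizer M24 (pt 4)

def qU (c : ℕ) : Bool := Nat.beq (Nat.land O0 (pfix c)) O0

theorem qU_iff (g : Perm Pt) : qU (code g) = true ↔ ∀ x ∈ unmask O0, g x = x := by
  rw [qU, beq_iff, pfix_code]
  conv_lhs => rw [← mask_O0]
  rw [← subset_iff_mask]
  exact forall₂_congr fun x _ => mem_fixS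

theorem mem_UO {g : M24} : g ∈ UO ↔ qU (code g) = true := by
  rw [qU_iff]; exact mem_fixingSubgroup_iff _

theorem base_O0 : ∀ x ∈ [23, 0, 1, 2, 3], pt x ∈ unmask O0 := by
  intro x hx
  rw [mem_unmask, idx_pt (by simp at hx; omega)]
  revert x; decide

theorem UO_RL {g : M24} (hg : g ∈ UO) : code g ∈ RL := by
  have h := fun x hx => (qU_iff _).1 (mem_UO.1 hg) _ (base_O0 x hx)
  exact code_mem_RL g.2 (h _ (by simp)) (h _ (by simp)) (h _ (by simp)) (h _ (by simp)) (h _ (by simp))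

theorem card_UO : Nat.card UO = 16 := by
  have := card_fix5 (fun g => g ∈ M24 ∧ qU (code g) = true) qU fun g => ⟨fun ⟨h1, h2⟩ => by
    have h := fun x hx => (qU_iff _).1 h2 _ (base_O0 x hx)
    exact ⟨h1, h _ (by simp), h _ (by simp), h _ (by simp), h _ (by simp), h _ (by simp), h2⟩, fun h => ⟨h.1, h.2.2.2.2.2.2⟩⟩
  rw [show cntL qU RL = 16 by decide +kernel] at this
  rw [← this]
  exact Nat.card_congr ⟨fun g => ⟨g.1.1, g.1.2, mem_UO.1 g.2⟩, fun g => ⟨⟨g.1, g.2.1⟩, mem_UO.2 g.2.2⟩,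
    fun _ => rfl, fun _ => rfl⟩

theorem UO_sq {g : M24} (hg : g ∈ UO) : g ^ 2 = 1 := by
  have := allL_eq_true.1 (show allL (fun c => bimp (qU c) (Nat.beq (pmul c c) pone)) RL = true by decide +kernel)
    _ (UO_RL hg)
  rw [bimp_eq_true, beq_iff, pmul_code, ← code_one] at this
  exact Subtype.ext ((sq _).trans (code_inj (this (mem_UO.1 hg))))

theorem UO_trans {y : Pt} (hy : y ∉ unmask O0) : ∃ u ∈ UO, (u : Perm Pt) (pt 4) = y := by
  have := allR_eq_true.1 (show allR (fun a => bor (tb O0 a) (anyL (fun r => band (qU r) (Nat.beq (dig r 4) a)) RL)) 24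
    = true by decide +kernel) _ (idx_lt y)
  rw [bor_eq_true, tb_eq_true, anyL_eq_true] at this
  obtain ⟨r, hr, h⟩ := this.resolve_left fun h => hy (mem_unmask.2 h)
  obtain ⟨g, hg, rfl, -⟩ := RL_spec hr
  rw [band_eq_true, beq_iff, dig_code _ (by norm_num)] at h
  exact ⟨⟨g, hg⟩, mem_UO.2 h.1, idx_inj h.2⟩

theorem four_not : pt 4 ∉ unmask O0 := by
  rw [mem_unmask, idx_pt (by norm_num)]; decide

theorem UO_le {u : M24} (hu : u ∈ UO) : u • unmask O0 = unmask O0 :=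
  smul_octad_eq u.2 O0_mem subset_rfl (by rw [(mem_octads.1 O0_mem).2]; norm_num) ((qU_iff _).1 (mem_UO.1 hu))

theorem MO_norm {m : M24} (hm : m • unmask O0 = unmask O0) {u : M24} (hu : u ∈ UO) : m * u * m⁻¹ ∈ UO :=
  (mem_fixingSubgroup_iff _).2 fun x hx => by
    have : m⁻¹ • x ∈ unmask O0 := by rw [Finset.inv_smul_mem_iff, hm]; exact hx
    rw [mul_smul, mul_smul, (mem_fixingSubgroup_iff _).1 hu _ this, smul_inv_smul]

theorem MO_faith {m : M24} (hm : m ∈ MO) (h : ∀ u ∈ UO, m * u * m⁻¹ = u) : m = 1 := by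
  have hf : ∀ y ∉ unmask O0, (m : Perm Pt) y = y := fun y hy => by
    obtain ⟨u, hu, rfl⟩ := UO_trans hy
    have := congrArg (fun g : M24 => (g : Perm Pt) (pt 4)) (mul_inv_eq_iff_eq_mul.1 (h u hu))
    simp only [coe_mul, Perm.mul_apply] at this
    rw [this, show (m : Perm Pt) (pt 4) = pt 4 from hm.2]
  have := enumFix_spec (q := fun c => bimp (Nat.beq (Nat.lor O0 (pfix c)) full) (Nat.beq c pone))
    (show enumG 4 6 7 8 9 4 6 7 8 9 _ = true by decide +kernel) (by decide) (by decide) m.2 fun x hx => hf _ (by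
      rw [mem_unmask, idx_pt (by simp at hx; omega)]
      revert x; decide)
  rw [bimp_eq_true, beq_iff, beq_iff, pfix_code, ← mask_O0, ← mask_union, ← mask_univ, ← code_one] at this
  refine Subtype.ext (code_inj (this (congrArg _ (Finset.eq_univ_of_forall fun x => ?_))))
  by_cases hx : x ∈ unmask O0
  · exact Finset.mem_union_left _ hx
  · exact Finset.mem_union_right _ (mem_fixS.2 (hf x hx))

theorem dec_O {g : M24} (hg : g • unmask O0 = unmask O0) : ∃ u ∈ UO, ∃ m ∈ MO, g = u * m := by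
  obtain ⟨u, hu, e⟩ := UO_trans (y := g • pt 4) (by rw [← hg, Finset.smul_mem_smul_finset_iff]; exact four_not)
  refine ⟨u, hu, u⁻¹ * g, ⟨?_, ?_⟩, by simp⟩
  · show (u⁻¹ * g) • unmask O0 = _
    rw [mul_smul, hg, inv_smul_eq_iff, UO_le hu]
  · show (u⁻¹ * g) • pt 4 = _
    rw [mul_smul, inv_smul_eq_iff]; exact e.symm

theorem card_MO : 20160 ≤ Nat.card MO := by
  have h := card_stab_octad O0_mem
  have : Nat.card ↥(M24 ⊓ MulAction.stabilizer (Perm Pt) (unmask O0)) ≤ Nat.card (UO × MO) := by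
    choose u hu m hm e using fun g : ↥(M24 ⊓ MulAction.stabilizer (Perm Pt) (unmask O0)) =>
      dec_O (g := ⟨g.1, g.2.1⟩) g.2.2
    refine Nat.card_le_card_of_injective (fun g => (⟨u g, hu g⟩, ⟨m g, hm g⟩)) fun a b hab => ?_
    have h1 : u a = u b := congrArg (fun x => x.1.1) hab
    have h2 : m a = m b := congrArg (fun x => x.2.1) hab
    exact Subtype.ext (congrArg (fun g : M24 => g.1) ((e a).trans (by rw [h1, h2, ← e b])))
  rw [h, Nat.card_prod, card_UO] at this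
  omega

theorem main (z : M24) (hz : orderOf z = 2) (hfix : fixS z ∈ octads) (Q : Subgroup M24)
    (hQ : Q = (pCore 2 (centralizer ({z} : Set M24))).map (centralizer ({z} : Set M24)).subtype) :
    IsExtraspecial 2 Q ∧ Nat.card Q = 2 ^ 7 ∧ (∃ E : Subgroup M24, E ≤ Q ∧ IsElementaryAbelian 2 E ∧ Nat.card E = 2 ^ 4) ∧
      IsLargeExtraspecial Q ∧ ∃ K : Subgroup M24, K ≤ centralizer ({z} : Set M24) ∧ Q ⊓ K = ⊥ ∧
        Q ⊔ K = centralizer ({z} : Set M24) ∧ Nonempty (K ≃* Matrix.SpecialLinearGroup (Fin 3) (ZMod 2)) := by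
  obtain ⟨k, hk, e⟩ := octad_transitive hfix O0_mem
  let c := MulAut.conj (⟨k, hk⟩ : M24)
  have hc : ∀ H : Subgroup M24, Nat.card (H.comap c.toMonoidHom) = Nat.card H := fun H => by
    rw [show H.comap c.toMonoidHom = H.map c.symm.toMonoidHom from comap_equiv_eq_map_symm' c H]
    exact card_map_of_injective c.symm.injective
  have hm : ∀ g : M24, Commute g z → c g • unmask O0 = unmask O0 := fun g hg => by
    have : g • fixS z = fixS z := Finset.eq_of_subset_of_card_le (fun x hx => by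
      obtain ⟨y, hy, rfl⟩ := Finset.mem_smul_finset.1 hx
      have := congrArg (fun g : M24 => (g : Perm Pt) y) hg.eq
      simp only [coe_mul, Perm.mul_apply, mem_fixS.1 hy] at this
      exact mem_fixS.2 this.symm) (by rw [Finset.card_smul_finset])
    have e' : (⟨k, hk⟩ : M24) • fixS z = unmask O0 := e
    rw [← e', MulAut.conj_apply, mul_smul, inv_smul_smul, mul_smul, this]
  refine core (UO.comap c.toMonoidHom) (MO.comap c.toMonoidHom) (fun u hu => c.injective ?_) ((hc _).trans card_UO)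
    (fun m hm u hu => ?_) (fun m hm h => c.injective ?_) ((hc _).symm ▸ card_MO) ?_ (fun h => by simp [h] at hz)
    (fun g hg => ?_) Q hQ
  · rw [map_pow, map_one]; exact UO_sq hu
  · show c _ ∈ UO
    rw [map_mul, map_mul, map_inv]; exact MO_norm hm.1 hu
  · rw [map_one]
    refine MO_faith hm fun u hu => ?_
    obtain ⟨u, rfl⟩ := c.surjective u
    show c m * c u * (c m)⁻¹ = _
    rw [← map_inv, ← map_mul, ← map_mul, h u hu]
  · refine (mem_fixingSubgroup_iff _).2 fun x hx => ?_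
    rw [← e] at hx
    obtain ⟨y, hy, rfl⟩ := Finset.mem_smul_finset.1 hx
    show k ((z : Perm Pt) (k⁻¹ (k y))) = k y
    rw [show k⁻¹ (k y) = y by simp, mem_fixS.1 hy]
  · obtain ⟨u, hu, m, hm', e⟩ := dec_O (hm g hg)
    obtain ⟨u, rfl⟩ := c.surjective u
    obtain ⟨m, rfl⟩ := c.surjective m
    exact ⟨u, hu, m, hm', c.injective (e.trans (map_mul _ _ _).symm)⟩

end

end CA.M24.OI

theorem CA.realizeEqns_M24_OctInv : True := by
  have := @CA.M24.OI.MO.eq_1
  have := @CA.M24.OI.MO.eq_def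
  have := @CA.M24.OI.MO.congr_simp
  have := @CA.M24.OI.qU.eq_1
  have := @CA.M24.OI.qU.eq_def
  have := @CA.M24.OI.qU.congr_simp
  have := @CA.M24.OI.UO.eq_1
  have := @CA.M24.OI.UO.eq_def
  have := @CA.M24.OI.UO.congr_simp
  trivial
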