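import Cfsg.Agent.EqAll
import Cfsg.Prelude.Def_Sporadic_a

/-! The projective plane of order four. -/

set_option autoImplicit false

namespace CA.M24.Plane

open Cfsg Finset

noncomputable section

variable {α : Type*} [Fintype α] [DecidableEq α] {L : Set (Finset α)}

/-- planes of order four -/
structure PP (L : Set (Finset α)) : Prop where
  card : Fintype.card α = 21
  st : IsSteinerSystem 2 5 L

/-- independent sets -/
abbrev Ind (L : Set (Finset α)) (S : Finset α) : Prop := ∀ l ∈ L, (l ∩ S).card ≤ 2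

omit [Fintype α] in
theorem Ind.mono {S T : Finset α} (h : Ind L T) (hS : S ⊆ T) : Ind L S := fun l hl =>
  (card_le_card (inter_subset_inter_left hS)).trans (h l hl)

omit [Fintype α] in
theorem Ind.three {S l : Finset α} (h : Ind L S) (hl : l ∈ L) {a b c : α} (ha : a ∈ S) (hb : b ∈ S) (hc : c ∈ S)
    (ha' : a ∈ l) (hb' : b ∈ l) (hc' : c ∈ l) (hab : a ≠ b) (hac : a ≠ c) : b = c := by
  by_contra hbc
  have := card_le_card (show {a, b, c} ⊆ l ∩ S by simp [insert_subset_iff, *])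
  rw [card_eq_three.2 ⟨a, b, c, hab, hac, hbc, rfl⟩] at this
  have := h l hl
  omega

open Classical in
/-- the lines through a point -/
def pencil (L : Set (Finset α)) (a : α) : Finset (Finset α) := univ.filter fun l => l ∈ L ∧ a ∈ l

theorem mem_pencil {a : α} {l : Finset α} : l ∈ pencil L a ↔ l ∈ L ∧ a ∈ l := by simp [pencil]

open Classical in
/-- the points extending an independent set -/
def free (L : Set (Finset α)) (S : Finset α) : Finset α := univ.filter fun x => x ∉ S ∧ Ind L (insert x S)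

theorem mem_free {S : Finset α} {x : α} : x ∈ free L S ↔ x ∉ S ∧ Ind L (insert x S) := by
  simp only [free, mem_filter, mem_univ, true_and]

namespace PP

theorem ex (h : PP L) {p q : α} (hpq : p ≠ q) : ∃ l ∈ L, p ∈ l ∧ q ∈ l := by
  obtain ⟨l, hl, -⟩ := h.st.2 {p, q} (card_pair hpq)
  exact ⟨l, hl.1, hl.2 (by simp), hl.2 (by simp)⟩

theorem uniq (h : PP L) {p q : α} (hpq : p ≠ q) {l m : Finset α} (hl : l ∈ L) (hm : m ∈ L) (h1 : p ∈ l)
    (h2 : q ∈ l) (h3 : p ∈ m) (h4 : q ∈ m) : l = m :=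
  (h.st.2 {p, q} (card_pair hpq)).unique ⟨hl, by simp [insert_subset_iff, *]⟩ ⟨hm, by simp [insert_subset_iff, *]⟩

theorem sum_pencil (h : PP L) (a : α) {X : Finset α} (ha : a ∉ X) :
    ∑ l ∈ pencil L a, (l ∩ X).card = X.card := by
  have := (sum_card_bipartiteAbove_eq_sum_card_bipartiteBelow (s := pencil L a) (t := X)
    (fun l x => x ∈ l)).trans (sum_const_nat (m := 1) fun x hx => by
      have hne : a ≠ x := fun e => ha (e ▸ hx)
      obtain ⟨l, h1, h2, h3⟩ := h.ex hne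
      refine card_eq_one.2 ⟨l, eq_singleton_iff_unique_mem.2 ⟨?_, fun m hm => ?_⟩⟩
      · exact (mem_bipartiteBelow _).2 ⟨mem_pencil.2 ⟨h1, h2⟩, h3⟩
      · obtain ⟨h4, h5⟩ := (mem_bipartiteBelow _).1 hm
        exact h.uniq hne (mem_pencil.1 h4).1 h1 (mem_pencil.1 h4).2 h5 h2 h3)
  rw [mul_one] at this
  rw [← this]
  refine sum_congr rfl fun l _ => congrArg _ ?_
  ext x
  rw [mem_bipartiteAbove, mem_inter, and_comm]

theorem card_pencil (h : PP L) (a : α) : (pencil L a).card = 5 := by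
  have := h.sum_pencil a (notMem_erase a univ)
  rw [sum_const_nat (m := 4) fun l hl => by
    rw [inter_erase, inter_univ, card_erase_of_mem (mem_pencil.1 hl).2, h.st.1 l (mem_pencil.1 hl).1],
    card_erase_of_mem (mem_univ a), card_univ, h.card] at this
  omega

theorem all_one (h : PP L) (a : α) {X : Finset α} (ha : a ∉ X) (h5 : X.card = 5)
    (h1 : ∀ l ∈ pencil L a, (l ∩ X).card ≤ 1) : ∀ l ∈ pencil L a, (l ∩ X).card = 1 :=
  (sum_eq_sum_iff_of_le h1).1 (by rw [h.sum_pencil a ha, sum_const, h.card_pencil, h5]; rfl)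

theorem meet (h : PP L) {l m : Finset α} (hl : l ∈ L) (hm : m ∈ L) : ∃ p, p ∈ l ∧ p ∈ m := by
  obtain ⟨a, ha⟩ := card_pos.1 (show 0 < m.card by rw [h.st.1 m hm]; norm_num)
  by_cases hal : a ∈ l
  · exact ⟨a, hal, ha⟩
  have := h.all_one a hal (h.st.1 l hl) (fun k hk => card_le_one.2 fun p hp q hq => by
    by_contra hne
    obtain ⟨h1, h2⟩ := mem_pencil.1 hk
    exact hal (h.uniq hne h1 hl (mem_inter.1 hp).1 (mem_inter.1 hq).1 (mem_inter.1 hp).2 (mem_inter.1 hq).2 ▸ h2))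
    m (mem_pencil.2 ⟨hm, ha⟩)
  obtain ⟨p, hp⟩ := card_pos.1 (show 0 < (m ∩ l).card by omega)
  exact ⟨p, (mem_inter.1 hp).2, (mem_inter.1 hp).1⟩

theorem not_free {S : Finset α} (hS : Ind L S) {x : α} (hx : x ∉ S) (hf : x ∉ free L S) :
    ∃ m ∈ L, x ∈ m ∧ (m ∩ S).card = 2 := by
  rw [mem_free, not_and] at hf
  have := hf hx
  simp only [not_forall, not_le] at this
  obtain ⟨m, hm, h⟩ := this
  have h1 := hS m hm
  by_cases hxm : x ∈ m
  · rw [inter_insert_of_mem hxm, card_insert_of_notMem fun e => hx (mem_inter.1 e).2] at h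
    exact ⟨m, hm, hxm, by omega⟩
  · rw [inter_insert_of_notMem hxm] at h
    omega

theorem free_secant {S m : Finset α} (hm : m ∈ L) (h2 : 2 ≤ (m ∩ S).card) {x : α} (hx : x ∈ free L S) :
    x ∉ m := fun hxm => by
  obtain ⟨h1, h3⟩ := mem_free.1 hx
  have := h3 m hm
  rw [inter_insert_of_mem hxm, card_insert_of_notMem fun e => h1 (mem_inter.1 e).2] at this
  omega

theorem tangent (h : PP L) {S : Finset α} (hS : Ind L S) (h4 : S.card ≤ 4) {a : α} (ha : a ∈ S)
    {l : Finset α} (hl : l ∈ L) (hal : a ∈ l) (ht : (l ∩ S.erase a).card = 0) :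
    (l ∩ free L S).card + (S.card - 1).choose 2 = 4 := by
  classical
  have hl' : ∀ x ∈ l, x ∈ S → x = a := fun x h1 h2 => by
    by_contra hne
    exact notMem_empty x (card_eq_zero.1 ht ▸ mem_inter.2 ⟨h1, mem_erase.2 ⟨hne, h2⟩⟩)
  have := (sum_card_bipartiteAbove_eq_sum_card_bipartiteBelow (s := (S.erase a).powersetCard 2)
    (t := l.erase a \ free L S) (fun D x => ∃ m ∈ L, D ⊆ m ∧ x ∈ m))
  rw [sum_const_nat (m := 1), sum_const_nat (m := 1), card_powersetCard, card_erase_of_mem ha, mul_one,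
    mul_one] at this
  · have h1 := card_sdiff_add_card_inter (l.erase a) (free L S)
    rw [card_erase_of_mem hal, h.st.1 l hl, erase_inter, erase_eq_of_notMem
      fun e => (mem_free.1 (mem_inter.1 e).2).1 ha] at h1
    omega
  · intro x hx
    obtain ⟨h1, h2⟩ := mem_sdiff.1 hx
    obtain ⟨h3, h5⟩ := mem_erase.1 h1
    have hxS : x ∉ S := fun e => h3 (hl' x h5 e)
    obtain ⟨m, hm, hxm, h6⟩ := not_free hS hxS h2
    have ham : a ∉ m := fun e => by
      rw [h.uniq h3 hm hl hxm e h5 hal] at h6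
      have := card_le_card (show l ∩ S ⊆ {a} from fun y hy =>
        mem_singleton.2 (hl' y (mem_inter.1 hy).1 (mem_inter.1 hy).2))
      rw [card_singleton] at this
      omega
    have h7 : m ∩ S ⊆ S.erase a := fun y hy =>
      mem_erase.2 ⟨fun e => ham (e ▸ (mem_inter.1 hy).1), (mem_inter.1 hy).2⟩
    refine card_eq_one.2 ⟨m ∩ S, eq_singleton_iff_unique_mem.2 ⟨(mem_bipartiteBelow _).2
      ⟨mem_powersetCard.2 ⟨h7, h6⟩, m, hm, inter_subset_left, hxm⟩, fun D hD => ?_⟩⟩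
    obtain ⟨h8, k, hk, h9, hxk⟩ := (mem_bipartiteBelow _).1 hD
    obtain ⟨h10, h11⟩ := mem_powersetCard.1 h8
    obtain ⟨b, hb⟩ : (D ∩ (m ∩ S)).Nonempty := by
      have e1 := card_union_add_card_inter D (m ∩ S)
      have e2 := card_le_card (union_subset h10 h7)
      rw [card_erase_of_mem ha] at e2
      exact card_pos.1 (by omega)
    obtain ⟨b1, b2⟩ := mem_inter.1 hb
    have : k = m := h.uniq (fun e : x = b => hxS (e ▸ (mem_inter.1 b2).2)) hk hm hxk (h9 b1) hxm (mem_inter.1 b2).1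
    exact eq_of_subset_of_card_le (subset_inter (this ▸ h9) (h10.trans (erase_subset a S))) (by omega)
  · intro D hD
    obtain ⟨h1, h2⟩ := mem_powersetCard.1 hD
    obtain ⟨b, c, hbc, rfl⟩ := card_eq_two.1 h2
    have hb := mem_erase.1 (h1 (mem_insert_self _ _))
    have hc := mem_erase.1 (h1 (mem_insert_of_mem (mem_singleton_self _)))
    obtain ⟨m, hm, hbm, hcm⟩ := h.ex hbc
    have hD' : {b, c} ⊆ m := by simp [insert_subset_iff, *]
    obtain ⟨x, hxl, hxm⟩ := h.meet hl hm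
    refine card_eq_one.2 ⟨x, eq_singleton_iff_unique_mem.2 ⟨(mem_bipartiteAbove _).2
      ⟨mem_sdiff.2 ⟨mem_erase.2 ⟨fun e => ?_, hxl⟩, fun hf => free_secant hm ?_ hf hxm⟩, m, hm, hD', hxm⟩,
      fun y hy => ?_⟩⟩
    · exact hbc (hS.three hm ha hb.2 hc.2 (e ▸ hxm) hbm hcm hb.1.symm hc.1.symm)
    · exact h2 ▸ card_le_card (subset_inter hD' (h1.trans (erase_subset a S)))
    · obtain ⟨h3, k, hk, h5, hyk⟩ := (mem_bipartiteAbove _).1 hy
      rw [h.uniq hbc hk hm (h5 (by simp)) (h5 (by simp)) hbm hcm] at hyk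
      by_contra hne
      exact hb.1 (hl' b (h.uniq hne hl hm (mem_erase.1 (mem_sdiff.1 h3).1).2 hxl hyk hxm ▸ hbm) hb.2)

theorem inter_erase_card {S l : Finset α} {a : α} (ha : a ∈ S) (hal : a ∈ l) :
    (l ∩ S.erase a).card + 1 = (l ∩ S).card := by
  rw [inter_erase, card_erase_add_one (mem_inter.2 ⟨hal, ha⟩)]

theorem card_free (h : PP L) {S : Finset α} (hS : Ind L S) (h1 : 1 ≤ S.card) (h4 : S.card ≤ 4) :
    (free L S).card = (6 - S.card) * (4 - (S.card - 1).choose 2) := by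
  obtain ⟨a, ha⟩ := card_pos.1 h1
  have e1 := h.sum_pencil a (notMem_erase a S)
  have e2 := h.sum_pencil a (X := free L S) fun e => (mem_free.1 e).1 ha
  have e3 : ∑ l ∈ pencil L a, ((l ∩ free L S).card + (4 - (S.card - 1).choose 2) * (l ∩ S.erase a).card) =
      (pencil L a).card * (4 - (S.card - 1).choose 2) := sum_const_nat fun l hl => by
    obtain ⟨h2, h3⟩ := mem_pencil.1 hl
    have h5 := inter_erase_card ha h3
    have h6 := hS l h2
    by_cases h7 : (l ∩ S.erase a).card = 0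
    · have := h.tangent hS h4 ha h2 h3 h7
      rw [h7]
      omega
    · have : l ∩ free L S = ∅ := eq_empty_of_forall_notMem fun x hx =>
        free_secant h2 (by omega) (mem_inter.1 hx).2 (mem_inter.1 hx).1
      rw [this, card_empty, show (l ∩ S.erase a).card = 1 by omega]
      omega
  rw [sum_add_distrib, ← mul_sum, e1, e2, h.card_pencil, card_erase_of_mem ha] at e3
  generalize 4 - (S.card - 1).choose 2 = c at e3 ⊢
  generalize S.card = k at *
  interval_cases k <;> omega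

theorem hyperoval (h : PP L) {S : Finset α} (hS : Ind L S) (h4 : S.card = 4) :
    ∃! H : Finset α, (H.card = 6 ∧ Ind L H) ∧ S ⊆ H := by
  have h2 : (free L S).card = 2 := by rw [h.card_free hS (by omega) h4.le, h4]; rfl
  have hd : Disjoint S (free L S) := disjoint_right.2 fun x hx => (mem_free.1 hx).1
  have h6 : (S ∪ free L S).card = 6 := by rw [card_union_of_disjoint hd, h4, h2]
  refine ⟨S ∪ free L S, ⟨⟨h6, fun l hl => ?_⟩, subset_union_left⟩, fun H hH => ?_⟩
  · rw [inter_union_distrib_left]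
    refine (card_union_le _ _).trans ?_
    have e1 := hS l hl
    have e2 := card_le_card (inter_subset_right : l ∩ free L S ⊆ _)
    by_cases h0 : (l ∩ S).card = 0
    · omega
    by_cases h1 : (l ∩ S).card = 1
    · obtain ⟨a, ha⟩ := card_pos.1 (show 0 < (l ∩ S).card by omega)
      obtain ⟨a1, a2⟩ := mem_inter.1 ha
      have e3 := inter_erase_card a2 a1
      have := h.tangent hS h4.le a2 hl a1 (by omega)
      rw [h4] at this
      norm_num at this
      omega
    · have : l ∩ free L S = ∅ := eq_empty_of_forall_notMem fun x hx =>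
        free_secant hl (by omega) (mem_inter.1 hx).2 (mem_inter.1 hx).1
      rw [this, card_empty]
      omega
  · refine eq_of_subset_of_card_le (fun x hx => ?_) (by rw [h6, hH.1.1])
    by_cases hxS : x ∈ S
    · exact mem_union_left _ hxS
    · exact mem_union_right _ (mem_free.2 ⟨hxS, Ind.mono hH.1.2 (insert_subset hx hH.2)⟩)

end PP

open Classical in
/-- the independent sets of a given size -/
def indS (L : Set (Finset α)) (k : ℕ) : Finset (Finset α) := univ.filter fun S => S.card = k ∧ Ind L S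

theorem mem_indS {k : ℕ} {S : Finset α} : S ∈ indS L k ↔ S.card = k ∧ Ind L S := by
  simp only [indS, mem_filter, mem_univ, true_and]

theorem count_up {j k m : ℕ} (h : ∀ S ∈ indS L j, ((indS L k).filter (S ⊆ ·)).card = m) :
    (indS L j).card * m = (indS L k).card * k.choose j := by
  have := sum_card_bipartiteAbove_eq_sum_card_bipartiteBelow (s := indS L j) (t := indS L k) (· ⊆ ·)
  refine (sum_const_nat h).symm.trans (this.trans (sum_const_nat fun T hT => ?_))
  rw [← (mem_indS.1 hT).1, ← card_powersetCard]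
  congr 1
  ext S
  rw [mem_bipartiteBelow, mem_powersetCard, mem_indS]
  exact ⟨fun h => ⟨h.2, h.1.1⟩, fun h => ⟨⟨h.2, (mem_indS.1 hT).2.mono h.1⟩, h.1⟩⟩

theorem card_above {k : ℕ} {S : Finset α} (hS : S.card = k) :
    ((indS L (k + 1)).filter (S ⊆ ·)).card = (free L S).card := by
  symm
  refine card_bij (fun x _ => insert x S) (fun x hx => ?_) (fun x hx y hy e => ?_) fun T hT => ?_
  · obtain ⟨h1, h2⟩ := mem_free.1 hx
    exact mem_filter.2 ⟨mem_indS.2 ⟨by rw [card_insert_of_notMem h1, hS], h2⟩, subset_insert _ _⟩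
  · exact (insert_inj (mem_free.1 hx).1).1 e
  · obtain ⟨h1, h2⟩ := mem_filter.1 hT
    obtain ⟨x, hx, rfl⟩ := exists_eq_insert_iff.2 ⟨h2, by rw [hS, (mem_indS.1 h1).1]⟩
    exact ⟨x, mem_free.2 ⟨hx, (mem_indS.1 h1).2⟩, rfl⟩

theorem PP.card_four (h : PP L) : (indS L 4).card = 2520 := by
  have step : ∀ k, 1 ≤ k → k ≤ 4 → (indS L k).card * ((6 - k) * (4 - (k - 1).choose 2)) =
      (indS L (k + 1)).card * (k + 1).choose k := fun k h1 h2 => count_up fun S hS => by
    obtain ⟨e, hi⟩ := mem_indS.1 hS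
    rw [card_above e, h.card_free hi (by omega) (by omega), e]
  have h1 : (indS L 1).card = 21 := by
    rw [← h.card, ← card_univ, ← Nat.choose_one_right univ.card, ← card_powersetCard]
    congr 1
    ext S
    rw [mem_indS, mem_powersetCard]
    exact ⟨fun h => ⟨subset_univ _, h.1⟩, fun h => ⟨h.2, fun l _ =>
      (card_le_card inter_subset_right).trans (by omega)⟩⟩
  have h2 := step 1 (by norm_num) (by norm_num)
  have h3 := step 2 (by norm_num) (by norm_num)
  have h4 := step 3 (by norm_num) (by norm_num)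
  norm_num [Nat.choose] at h2 h3 h4
  omega

theorem PP.card_six (h : PP L) : (indS L 6).card = 168 := by
  have := count_up (L := L) (j := 4) (k := 6) (m := 1) fun S hS => by
    obtain ⟨H, h1, h2⟩ := h.hyperoval (mem_indS.1 hS).2 (mem_indS.1 hS).1
    exact card_eq_one.2 ⟨H, eq_singleton_iff_unique_mem.2 ⟨mem_filter.2 ⟨mem_indS.2 h1.1, h1.2⟩,
      fun K hK => h2 K ⟨mem_indS.1 (mem_filter.1 hK).1, (mem_filter.1 hK).2⟩⟩⟩
  rw [h.card_four] at this
  norm_num [Nat.choose] at this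
  omega

/-! ### Coordinates from a hyperoval -/

/-- the synthemes -/
def syn : Fin 15 → Fin 6 → Fin 6 := ![![1, 0, 3, 2, 5, 4], ![1, 0, 4, 5, 2, 3], ![1, 0, 5, 4, 3, 2], ![2, 3, 0, 1, 5, 4], ![2, 4, 0, 5, 1, 3], ![2, 5, 0, 4, 3, 1], ![3, 2, 1, 0, 5, 4], ![3, 4, 5, 0, 1, 2], ![3, 5, 4, 0, 2, 1], ![4, 2, 1, 5, 0, 3], ![4, 3, 5, 1, 0, 2], ![4, 5, 3, 2, 0, 1], ![5, 2, 1, 4, 3, 0], ![5, 3, 4, 1, 2, 0], ![5, 4, 3, 2, 1, 0]]

/-- the totals -/
def tot : Fin 6 → Finset (Fin 15) := ![{0, 4, 8, 10, 12}, {0, 5, 7, 9, 13}, {1, 3, 7, 11, 12}, {1, 5, 6, 10, 14}, {2, 3, 8, 9, 14}, {2, 4, 6, 11, 13}]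

/-- the lines of the model plane -/
def IsLine (l : Finset (Fin 6 ⊕ Fin 15)) : Prop :=
  (∃ i j : Fin 6, i ≠ j ∧ l = {Sum.inl i, Sum.inl j} ∪ (univ.filter fun k => syn k i = j).map .inr) ∨
    ∃ t : Fin 6, l = (tot t).map .inr

set_option synthInstance.maxSize 2000 in
set_option synthInstance.maxHeartbeats 200000 in
theorem syn_all : ∀ a : Fin 6, a ≠ 0 → ∃ i, i ≠ 0 ∧ i ≠ a ∧ ∀ b, b ≠ i → b ≠ 0 → b ≠ a →
    ∃ k, syn k 0 = a ∧ syn k a = 0 ∧ syn k i = b ∧ syn k b = i ∧ ∀ j, j ≠ 0 → j ≠ a → j ≠ i → j ≠ b →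
      ∀ c, c ≠ j → c ≠ 0 → c ≠ a → c ≠ i → c ≠ b → syn k j = c := by
  decide +kernel

theorem syn_ex (s : Fin 6 → Fin 6) (h : ∀ i, s i ≠ i ∧ s (s i) = i) : ∃ k, syn k = s := by
  have t : ∀ {i j}, i ≠ s j → s i ≠ j := fun {i j} h1 e => h1 (by rw [← e, (h i).2])
  have u : ∀ {i j}, i ≠ j → s i ≠ s j := fun {i j} h1 => t (by rwa [(h j).2])
  obtain ⟨i, h1, h2, h3⟩ := syn_all (s 0) (h 0).1
  obtain ⟨k, e1, e2, e3, e4, e5⟩ := h3 (s i) (h i).1 (t h2) (u h1)
  refine ⟨k, funext fun j => ?_⟩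
  by_cases a1 : j = 0
  · rw [a1, e1]
  by_cases a2 : j = s 0
  · rw [a2, e2, (h 0).2]
  by_cases a3 : j = i
  · rw [a3, e3]
  by_cases a4 : j = s i
  · rw [a4, e4, (h i).2]
  exact e5 j a1 a2 a3 a4 _ (h j).1 (t a2) (u a1) (t a4) (u a3)

theorem syn_ne : ∀ k i, syn k i ≠ i := by decide +kernel

theorem syn_two : ∀ k, ∃ i, i ≠ 0 ∧ i ≠ syn k 0 := by decide +kernel

theorem syn_card : ∀ i j, i ≠ j → (univ.filter fun k => syn k i = j).card = 3 := by decide +kernel

theorem tot_card : ∀ t, (tot t).card = 5 := by decide +kernel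

theorem tot_disj : ∀ t, ∃ a ∈ tot t, ∃ b ∈ tot t, a ≠ b ∧ (∀ i, syn a i ≠ syn b i) ∧
    ∀ c d, c ≠ a → c ≠ b → (∀ i, syn c i ≠ syn a i) → (∀ i, syn c i ≠ syn b i) → (∀ i, syn d i ≠ syn a i) →
      (∀ i, syn d i ≠ syn b i) → (∀ i, syn c i ≠ syn d i) → c ∈ tot t := by decide +kernel

theorem line_two : ∀ x y : Fin 6 ⊕ Fin 15, (∃ i j : Fin 6, i ≠ j ∧
    x ∈ ({Sum.inl i, Sum.inl j} ∪ (univ.filter fun k => syn k i = j).map .inr : Finset (Fin 6 ⊕ Fin 15)) ∧
    y ∈ ({Sum.inl i, Sum.inl j} ∪ (univ.filter fun k => syn k i = j).map .inr : Finset (Fin 6 ⊕ Fin 15))) ∨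
    ∃ t : Fin 6, x ∈ (tot t).map (.inr : Fin 15 ↪ Fin 6 ⊕ Fin 15) ∧
      y ∈ (tot t).map (.inr : Fin 15 ↪ Fin 6 ⊕ Fin 15) := by decide +kernel

/-- `x` lies on the secant through the points `i` and `j` -/
def Sec (L : Set (Finset α)) (p : Fin 6 → α) (x : α) (i j : Fin 6) : Prop :=
  i ≠ j ∧ ∃ l ∈ L, p i ∈ l ∧ p j ∈ l ∧ x ∈ l

namespace PP

variable {p : Fin 6 → α}

theorem secant (h : PP L) (hp : Function.Injective p) (hi : Ind L (univ.image p)) {l : Finset α} (hl : l ∈ L)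
    {i : Fin 6} (hil : p i ∈ l) : ∃ j, j ≠ i ∧ p j ∈ l := by
  have hm := mem_image_of_mem p (mem_univ i)
  have := h.all_one (p i) (notMem_erase _ (univ.image p))
    (by rw [card_erase_of_mem hm, card_image_of_injective _ hp]; rfl)
    (fun k hk => by
      have := inter_erase_card hm (mem_pencil.1 hk).2
      have := hi k (mem_pencil.1 hk).1
      omega) l (mem_pencil.2 ⟨hl, hil⟩)
  obtain ⟨x, hx⟩ := card_pos.1 (show 0 < (l ∩ (univ.image p).erase (p i)).card by omega)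
  obtain ⟨h1, h2⟩ := mem_inter.1 hx
  obtain ⟨j, -, rfl⟩ := mem_image.1 (mem_erase.1 h2).2
  exact ⟨j, fun e => (mem_erase.1 h2).1 (e ▸ rfl), h1⟩

theorem exists_syn (h : PP L) (hp : Function.Injective p) (hi : Ind L (univ.image p)) {x : α}
    (hx : ∀ i, p i ≠ x) : ∃ k, ∀ i j, Sec L p x i j ↔ syn k i = j := by
  have hm := fun i => mem_image_of_mem p (mem_univ i)
  have h1 : ∀ i, ∃ j, Sec L p x i j := fun i => by
    obtain ⟨l, hl, a, b⟩ := h.ex (hx i)
    obtain ⟨j, hj, c⟩ := h.secant hp hi hl a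
    exact ⟨j, hj.symm, l, hl, a, c, b⟩
  have h2 : ∀ i j j', Sec L p x i j → Sec L p x i j' → j = j' := by
    rintro i j j' ⟨a, l, hl, b, c, d⟩ ⟨a', m, hm', b', c', d'⟩
    rw [h.uniq (hx i) hm' hl b' d' b d] at c'
    exact hp (hi.three hl (hm i) (hm j) (hm j') b c c' (hp.ne a) (hp.ne a'))
  have h3 : ∀ i j, Sec L p x i j → Sec L p x j i := by
    rintro i j ⟨a, l, hl, b, c, d⟩
    exact ⟨a.symm, l, hl, c, b, d⟩
  choose s hs using h1
  obtain ⟨k, rfl⟩ := syn_ex s fun i => ⟨(hs i).1.symm, h2 _ _ _ (hs _) (h3 _ _ (hs i))⟩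
  exact ⟨k, fun i j => ⟨h2 _ _ _ (hs i), fun e => e ▸ hs i⟩⟩

theorem eq_of_syn (h : PP L) (hp : Function.Injective p) (hi : Ind L (univ.image p)) {x y : α} {k : Fin 15}
    (hx : ∀ i, Sec L p x i (syn k i)) (hy : ∀ i, Sec L p y i (syn k i)) : x = y := by
  have hm := fun i => mem_image_of_mem p (mem_univ i)
  obtain ⟨i, h1, h2⟩ := syn_two k
  obtain ⟨a, l, hl, b, c, d⟩ := hx 0
  obtain ⟨-, l', hl', b', c', d'⟩ := hy 0
  obtain ⟨a2, m, hm1, e, f, g⟩ := hx i
  obtain ⟨-, m', hm', e', f', g'⟩ := hy i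
  rw [h.uniq (hp.ne a) hl' hl b' c' b c] at d'
  rw [h.uniq (hp.ne a2) hm' hm1 e' f' e f] at g'
  by_contra hne
  rw [h.uniq hne hm1 hl g g' d d'] at e
  exact h2 (hp (hi.three hl (hm 0) (hm i) (hm _) b e c (hp.ne h1.symm) (hp.ne a)))

theorem coord (h : PP L) (hp : Function.Injective p) (hi : Ind L (univ.image p)) :
    ∃ e : Fin 6 ⊕ Fin 15 ≃ α, (∀ i, e (.inl i) = p i) ∧ ∀ l, l.image e ∈ L ↔ IsLine l := by
  have hm := fun i => mem_image_of_mem p (mem_univ i)
  have h0 : ∀ x, ∃ y : Fin 6 ⊕ Fin 15, (∃ i, y = .inl i ∧ p i = x) ∨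
      ∃ k, y = .inr k ∧ (∀ i, p i ≠ x) ∧ ∀ i j, Sec L p x i j ↔ syn k i = j := fun x => by
    by_cases hx : ∃ i, p i = x
    · obtain ⟨i, hi⟩ := hx
      exact ⟨_, Or.inl ⟨i, rfl, hi⟩⟩
    · push Not at hx
      obtain ⟨k, hk⟩ := h.exists_syn hp hi hx
      exact ⟨_, Or.inr ⟨k, rfl, hx, hk⟩⟩
  choose F hF using h0
  have hb : Function.Bijective F := by
    rw [Fintype.bijective_iff_injective_and_card]
    refine ⟨fun x y e => ?_, by rw [h.card]; rfl⟩
    rcases hF x with ⟨i, e1, e2⟩ | ⟨k, e1, -, e2⟩ <;> rcases hF y with ⟨j, e3, e4⟩ | ⟨k', e3, -, e4⟩ <;>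
      rw [e1, e3] at e
    · rw [← e2, ← e4, Sum.inl_injective e]
    · cases e
    · cases e
    · cases e
      exact h.eq_of_syn hp hi (fun i => (e2 _ _).2 rfl) fun i => (e4 _ _).2 rfl
  let e := (Equiv.ofBijective F hb).symm
  have he : ∀ y, F (e y) = y := (Equiv.ofBijective F hb).apply_symm_apply
  have e1 : ∀ i, e (.inl i) = p i := fun i => by
    rcases hF (e (.inl i)) with ⟨j, a, b⟩ | ⟨k, a, -⟩ <;> rw [he] at a <;> cases a
    exact b.symm
  have e2 : ∀ k i j, Sec L p (e (.inr k)) i j ↔ syn k i = j := fun k => by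
    rcases hF (e (.inr k)) with ⟨j, a, -⟩ | ⟨k, a, -, b⟩ <;> rw [he] at a <;> cases a
    exact b
  have key : ∀ l, IsLine l → l.image e ∈ L := by
    rintro _ (⟨i, j, hij, rfl⟩ | ⟨t, rfl⟩)
    · obtain ⟨l, hl, a, b⟩ := h.ex (hp.ne hij)
      convert hl
      refine eq_of_subset_of_card_le (image_subset_iff.2 fun y hy => ?_) ?_
      · simp only [mem_union, mem_insert, mem_singleton, mem_map, mem_filter, mem_univ, true_and] at hy
        rcases hy with (rfl | rfl) | ⟨k, hk, rfl⟩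
        · rwa [e1]
        · rwa [e1]
        · obtain ⟨-, m, hm1, a', b', c⟩ := (e2 k i j).2 hk
          rwa [h.uniq (hp.ne hij) hm1 hl a' b' a b] at c
      · rw [h.st.1 l hl, card_image_of_injective _ e.injective, card_union_of_disjoint (by simp),
          card_pair (Sum.inl_injective.ne hij), card_map, syn_card i j hij]
    · obtain ⟨a, ha, b, hb', hab, h1, h2⟩ := tot_disj t
      obtain ⟨l, hl, la, lb⟩ := h.ex (e.injective.ne (Sum.inr_injective.ne hab))
      have k1 : ∀ c d, c ≠ d → e (.inr c) ∈ l → e (.inr d) ∈ l → ∀ i, p i ∈ l → syn c i = syn d i :=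
        fun c d _ hc hd i hi' => by
          obtain ⟨j, hj, hjl⟩ := h.secant hp hi hl hi'
          rw [(e2 c i j).1 ⟨hj.symm, l, hl, hi', hjl, hc⟩, (e2 d i j).1 ⟨hj.symm, l, hl, hi', hjl, hd⟩]
      have k2 : ∀ i, p i ∉ l := fun i hi' => h1 i (k1 a b hab la lb i hi')
      have k3 : ∀ c d, c ≠ d → e (.inr c) ∈ l → e (.inr d) ∈ l → ∀ i, syn c i ≠ syn d i :=
        fun c d hcd hc hd i e3 => by
          obtain ⟨hij, m, hm1, a1, b1, c1⟩ := (e2 c i _).2 rfl
          obtain ⟨-, m', hm2, a2, b2, c2⟩ := (e2 d i _).2 e3.symm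
          rw [h.uniq (hp.ne hij) hm2 hm1 a2 b2 a1 b1] at c2
          exact k2 i (h.uniq (e.injective.ne (Sum.inr_injective.ne hcd)) hm1 hl c1 c2 hc hd ▸ a1)
      have k4 : ∀ x ∈ l, ∃ c, e (.inr c) = x := fun x hx => by
        obtain ⟨i | c, rfl⟩ := e.surjective x
        · exact absurd (e1 i ▸ hx) (k2 i)
        · exact ⟨c, rfl⟩
      convert hl
      refine (eq_of_subset_of_card_le (fun x hx => ?_) ?_).symm
      · obtain ⟨c, rfl⟩ := k4 x hx
        refine mem_image_of_mem _ (mem_map_of_mem _ ?_)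
        by_cases ca : c = a
        · rwa [ca]
        by_cases cb : c = b
        · rwa [cb]
        obtain ⟨y, hy, hy'⟩ := exists_mem_notMem_of_card_lt_card (s := {e (.inr a), e (.inr b), e (.inr c)})
          (t := l) (lt_of_le_of_lt card_le_three (by rw [h.st.1 l hl]; norm_num))
        obtain ⟨d, rfl⟩ := k4 y hy
        simp only [mem_insert, mem_singleton, not_or, e.injective.eq_iff, Sum.inr.injEq] at hy'
        exact h2 c d ca cb (k3 c a ca hx la) (k3 c b cb hx lb) (k3 d a hy'.1 hy la) (k3 d b hy'.2.1 hy lb)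
          (k3 c d (Ne.symm hy'.2.2) hx hy)
      · rw [h.st.1 l hl, card_image_of_injective _ e.injective, card_map, tot_card]
  refine ⟨e, e1, fun l => ⟨fun hl => ?_, key l⟩⟩
  obtain ⟨x, hx, y, hy, hxy⟩ := one_lt_card.1 (show 1 < l.card by
    rw [← card_image_of_injective _ e.injective, h.st.1 _ hl]; norm_num)
  have k : ∀ m, IsLine m → x ∈ m → y ∈ m → IsLine l := fun m h1 h2 h3 => by
    rwa [image_injective e.injective (h.uniq (e.injective.ne hxy) hl (key m h1) (mem_image_of_mem _ hx)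
      (mem_image_of_mem _ hy) (mem_image_of_mem _ h2) (mem_image_of_mem _ h3))]
  rcases line_two x y with ⟨i, j, hij, a, b⟩ | ⟨t, a, b⟩
  · exact k _ (Or.inl ⟨i, j, hij, rfl⟩) a b
  · exact k _ (Or.inr ⟨t, rfl⟩) a b

theorem iso {β : Type*} [Fintype β] [DecidableEq β] {L' : Set (Finset β)} {q : Fin 6 → β} (h : PP L)
    (hp : Function.Injective p) (hi : Ind L (univ.image p)) (h' : PP L') (hq : Function.Injective q)
    (hi' : Ind L' (univ.image q)) :
    ∃ g : α ≃ β, (∀ i, g (p i) = q i) ∧ (fun b : Finset α => b.image g) '' L = L' := by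
  obtain ⟨e, e1, e2⟩ := h.coord hp hi
  obtain ⟨f, f1, f2⟩ := h'.coord hq hi'
  refine ⟨e.symm.trans f, fun i => by rw [← e1, ← f1]; simp, Set.ext fun m => ⟨?_, fun hm => ?_⟩⟩
  · rintro ⟨l, hl, rfl⟩
    have := (f2 _).2 ((e2 (l.image e.symm)).1 (by simpa [image_image] using hl))
    simpa [image_image] using this
  · refine ⟨_, (e2 _).2 ((f2 (m.image f.symm)).1 (by simpa [image_image] using hm)), ?_⟩
    ext x
    simp

theorem enum {H : Finset α} (h6 : H.card = 6) : ∃ p : Fin 6 → α, Function.Injective p ∧ univ.image p = H :=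
  ⟨fun i => (equivFinOfCardEq h6).symm i, Subtype.val_injective.comp (Equiv.injective _), by
    ext x
    simp only [mem_image, mem_univ, true_and]
    exact ⟨fun ⟨i, e⟩ => e ▸ Subtype.property _, fun hx => ⟨equivFinOfCardEq h6 ⟨x, hx⟩, by simp⟩⟩⟩

theorem exists_oval (h : PP L) : ∃ p : Fin 6 → α, Function.Injective p ∧ Ind L (univ.image p) := by
  obtain ⟨H, hH⟩ := card_pos.1 (show 0 < (indS L 6).card by rw [h.card_six]; norm_num)
  obtain ⟨p, h1, h2⟩ := enum (mem_indS.1 hH).1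
  exact ⟨p, h1, h2 ▸ (mem_indS.1 hH).2⟩

theorem eq_one (h : PP L) (hp : Function.Injective p) (hi : Ind L (univ.image p)) {g : Equiv.Perm α}
    (hg : ∀ l ∈ L, l.image g ∈ L) (h1 : ∀ i, g (p i) = p i) : g = 1 := by
  ext x
  by_cases hx : ∃ i, p i = x
  · obtain ⟨i, rfl⟩ := hx
    exact h1 i
  · push Not at hx
    obtain ⟨k, hk⟩ := h.exists_syn hp hi hx
    refine h.eq_of_syn hp hi (k := k) (fun i => ?_) fun i => (hk _ _).2 rfl
    obtain ⟨a, l, hl, b, c, d⟩ := (hk i _).2 rfl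
    exact ⟨a, _, hg l hl, h1 i ▸ mem_image_of_mem g b, h1 _ ▸ mem_image_of_mem g c, mem_image_of_mem g d⟩

end PP

end

end CA.M24.Plane

theorem CA.M24.realizeEqnsPlane : True := by
  have := @CA.M24.Plane.syn.eq_1
  have := @CA.M24.Plane.syn.eq_def
  have := @CA.M24.Plane.syn.congr_simp
  have := @CA.M24.Plane.pencil.eq_1.{0}
  have := @CA.M24.Plane.pencil.eq_def.{0}
  have := @CA.M24.Plane.pencil.congr_simp.{0}
  have := @CA.M24.Plane.Sec.eq_1.{0}
  have := @CA.M24.Plane.Sec.eq_def.{0}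
  have := @CA.M24.Plane.Sec.congr_simp.{0}
  have := @CA.M24.Plane.IsLine.eq_1
  have := @CA.M24.Plane.IsLine.eq_def
  have := @CA.M24.Plane.IsLine.congr_simp
  have := @CA.M24.Plane.tot.eq_1
  have := @CA.M24.Plane.tot.eq_def
  have := @CA.M24.Plane.tot.congr_simp
  have := @CA.M24.Plane.Ind.eq_1.{0}
  have := @CA.M24.Plane.Ind.eq_def.{0}
  have := @CA.M24.Plane.Ind.congr_simp.{0}
  have := @CA.M24.Plane.indS.eq_1.{0}
  have := @CA.M24.Plane.indS.eq_def.{0}
  have := @CA.M24.Plane.indS.congr_simp.{0}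
  have := @CA.M24.Plane.free.eq_1.{0}
  have := @CA.M24.Plane.free.eq_def.{0}
  have := @CA.M24.Plane.free.congr_simp.{0}
  trivial
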