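import Cfsg.Agent.M24.Cent3
import Cfsg.Agent.M24.Stabs

/-! The centralizer of a fixed-point-free permutation of order three. -/

set_option autoImplicit false
set_option maxRecDepth 100000

namespace CA.M24.Thom

open Cfsg Subgroup Equiv CA.Fi

noncomputable section

local notation "Λ" => leechLattice

theorem order : orderOf (perm r3B) = 3 := orderOf_r3B

theorem card_CM3' {π : Perm Pt} (h1 : π (pt 23) = pt 0) (h2 : π (pt 0) = pt 1) (h4 : π (pt 2) = pt 3) (s : ℕ)
    (hs : allR (fun b => bimp (tb s b) (bor (memL b [23, 0, 1])
      (enum5 23 0 1 b (dig (code π) b) fun x => bnot (commB x (code π))))) 24 = true) :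
    Nat.card (CM π) ≤ (fixS π ∪ ∅)ᶜ.card * ((fixS π ∪ unmask s)ᶜ.card * cntL (fun c => commB c (code π)) RL) := by
  have key : ∀ g ∈ CM π ⊓ MulAction.stabilizer (Perm Pt) (pt 23), g (pt 23) = pt 23 ∧ g (pt 0) = pt 0 ∧
      g (pt 1) = pt 1 := by
    rintro g ⟨hg, e⟩
    have e0 : g (pt 23) = pt 23 := e
    have e1 : g (pt 0) = pt 0 := by rw [← h1, comm_apply hg, e0]
    exact ⟨e0, e1, by rw [← h2, comm_apply hg, e1]⟩
  rw [card_eq_orb_mul (CM π) (pt 23), card_eq_orb_mul (CM π ⊓ _) (pt 2)]
  refine Nat.mul_le_mul (orb_CM le_rfl (by rw [h1]; decide) _ (by simp)) (Nat.mul_le_mul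
    (orb_CM inf_le_left (by rw [h4]; decide) _ fun g hg hm => ?_) (le_of_eq (card_fix5 _ _ fun g => ?_)))
  · obtain ⟨e0, e1, e2⟩ := key g hg
    have d0 := dig_of_apply (by norm_num) (by norm_num) e0
    have d1 := dig_of_apply (by norm_num) (by norm_num) e1
    have d2 := dig_of_apply (by norm_num) (by norm_num) e2
    have h5 := allR_eq_true.1 hs _ (idx_lt (g (pt 2)))
    rw [bimp_eq_true, tb_eq_true, bor_eq_true, memL_eq_true, ← dig_code g (by norm_num)] at h5
    rcases h5 (by rw [dig_code g (by norm_num)]; exact mem_unmask.1 hm) with h5 | h5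
    · rw [← d0, ← d1, ← d2] at h5
      simp only [List.mem_cons, List.not_mem_nil, or_false] at h5
      rcases h5 with h5 | h5 | h5 <;> exact dig_code_ne g (by norm_num) (by norm_num) (by norm_num) h5
    · refine bnot_eq_true.1 (enum5_spec h5 hg.1.1 d0 d1 d2 rfl ?_) (commB_code.2 (mem_cent_iff.1 hg.1.2))
      exact dig_comm (mem_cent_iff.1 hg.1.2) (by norm_num) (dig_of_apply (by norm_num) (by norm_num) h4)
  rw [commB_code]
  constructor
  · rintro ⟨hg, e⟩
    obtain ⟨e0, e1, e2⟩ := key g hg
    have e3 : g (pt 2) = pt 2 := e
    exact ⟨hg.1.1, e0, e1, e2, e3, by rw [← h4, comm_apply hg.1, e3], mem_cent_iff.1 hg.1.2⟩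
  · rintro ⟨hg, e0, -, -, e3, -, e⟩
    exact ⟨⟨⟨hg, mem_cent_iff.2 e⟩, e0⟩, e3⟩

def ws : List ℕ := [nat_lit 3347018339542579412187441149555950560840851536625369383040, nat_lit 3199898019330571341774826794629564063163483646096291431042, nat_lit 3175283430671526658806170033041700521078852922337361363329, nat_lit 3101819801304293489816705921103393186855142995468329320062, nat_lit 3126625954817620904993620100266930569399188059776671121279, nat_lit 3150666597157295989028645736786013051461715489149633593472, nat_lit 3150858162011489518256109031552208080175592286936667029632, nat_lit 3199707202765260377652439942820336660342423039319224648322]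
def us : List ℕ := [nat_lit 3175474244336669961537114796544982641470345612110581432191, nat_lit 3150858904477201671340124192458979955578311303341220724862, nat_lit 3151050478100360598653615834359489866801887495799659724928, nat_lit 3150858162011533944846686488390447520210491397342016602240, nat_lit 3200090335408068867899179875569817836499083857625759252608, nat_lit 3151051214685767657659798185139123541072345479126414557822, nat_lit 3200091080773993282501225493322659655901629872172121095808, nat_lit 3101819801304293489133472346676226940675689874042858274942]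
def FB : List ℕ := [nat_lit 5792252, nat_lit 13914655, nat_lit 11052095, nat_lit 14379043]
def gens : List ℕ := [nat_lit 528399374122305866173680255342488882, nat_lit 333767902302494903452248992506287303]
def DD : List (Word × ℕ × ℕ) := [([(nat_lit 984818244535754528103549039458486304, nat_lit 5792252, false)], nat_lit 207694647408081218844184483169697793, nat_lit 984818244535754528103544502937158720),
  ([(nat_lit 984818244535754528103549039458486304, nat_lit 13914655, false)], nat_lit 451734897375929887351086483312279553, nat_lit 984818244535754528103545567080127584),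
  ([(nat_lit 984818244535754528103549039458486304, nat_lit 11052095, false)], nat_lit 1318862813082512065289738139023769601, nat_lit 984818244535754528103542370512085120),
  ([(nat_lit 984818244535754528103549039458486304, nat_lit 14379043, false)], nat_lit 664625961459846594728178007040262145, nat_lit 984818244535754528103543434395261088),
  ([(nat_lit 528399374122305866173680255342488882, nat_lit 0, false)], nat_lit 15592181766924597790763940872323073, nat_lit 984818244535754528103543372246126784),
  ([(nat_lit 333767902302494903452248992506287303, nat_lit 0, false)], nat_lit 1038477118857683983858571328903053313, nat_lit 984818244535754528103545605534715936),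
  ([(nat_lit 51115084634434931546731070658466153, nat_lit 4845570, true), (nat_lit 26178748458373973237476062705815078, nat_lit 4526126, false)], nat_lit 430974266769516988717109335087120598, nat_lit 984818244535754528103547903541283904),
  ([(nat_lit 470116351186419050584217868007103489, nat_lit 13442945, true), (nat_lit 474380891707086580173479016140953298, nat_lit 7759386, true), (nat_lit 136711624097477754156116522003617189, nat_lit 0, true), (nat_lit 27965999758181544167817833440054792, nat_lit 663645, false)], nat_lit 965787260429519415148983297845231755, nat_lit 984818244535754528103548901986928865)]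
def LL : ℕ := nat_lit 134662492744874325847821606596950562101764356216726691657961020825876496443618923927460591509294019573952842844290034274535694652524183264537583959899173132593550126620829348698947400622933744999876768126747797012955509142653581875584249113138506389767367799556104808001734139799308069553158459998790535837780716673964524537642540446232598323665027543403159410279154213912700271949665300897910656628927123142810432555205926414336847493310827978079254191580055275143441309532771759560656275090613478298588738577486457243819921489197993862687489598209660789969205230842870091063141905829477154953225679978797541260732686844328366369571340496002236466913830932250161882870834474625851257646918064586323026173969971586349511128538125828808407693892603856148918570590661238227321458649165559567804348381834873078432742455143518201357548087532926812853692206665356993768537033418090725527884774187113685117872837808742155676824559884105284105630082976507510655414300174475219667035606350679088572616083469088850275513580133297496697244703940847097864012753468136023433236216370903729238297801811692902572581051030060019001225016200318797683757555657422128611466783758372124865537191599052311318435531447147153166686969940857489239568289792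
def blks : List ℕ := [nat_lit 79003502012547606962600161271588915843245839411255546774659530754, nat_lit 233225753666906766351060486876744563359897053442159080400760789736667349024, nat_lit 7771207917815286587181792670514594008879345361322945734081253004550144, nat_lit 1593795457498578596351059839143599324365333634080781107264, nat_lit 1810134817866277598382636628983367412177439987310171363456844481644875218944, nat_lit 220964157297172915202134649209707728112752959377454451133442229142585344, nat_lit 3588908107015955629742905113851078848500418908470439714086210977686093824, nat_lit 113092015849135163292926444391993472920598904360065689303314270965049851904, nat_lit 452340469048678306227340089783495491401585876575299992605161291593799696384]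
def SP : List (ℕ × ℕ) := [(nat_lit 0, nat_lit 3150858910311745638317572730080710985337652928985868304512), (nat_lit 2, nat_lit 3199898019330571341774826794629564063163483646096291431042)]

theorem bas : basChk ws us 8 (nat_lit 664619068533544770747334646890102785) = true := by decide +kernel

theorem crd : Crd (centralizer {pC (perm r3B)}) (FixC (pC (perm r3B))) (2 ^ 8) (crdV us) (cmbV ws 8) :=
  crd_of_chk (n := 1) r3B_in.perm_mem rfl bas (by rw [r3B_in.code_perm]; decide +kernel)

theorem card_CM_le : Nat.card (CM (perm r3B)) ≤ 504 :=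
  (card_CM3' (by rw [apply_pt _ (by norm_num), r3B_in.code_perm]; decide +kernel)
    (by rw [apply_pt _ (by norm_num), r3B_in.code_perm]; decide +kernel)
    (by rw [apply_pt _ (by norm_num), r3B_in.code_perm]; decide +kernel) (nat_lit 13104379)
    (by rw [r3B_in.code_perm]; decide +kernel)).trans (by
      rw [card_moved r3B_in.code_perm, card_moved r3B_in.code_perm, r3B_in.code_perm, mask_empty,
        mask_unmask (by decide +kernel)]
      decide +kernel)

theorem gens_in : ∀ c ∈ gens, InH (CM (perm r3B)) c := inCM_of (by rw [r3B_in.code_perm]; decide +kernel)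

theorem lb_CM : 504 ≤ chainLB [(nat_lit 0, nat_lit 4, [[nat_lit 0, nat_lit 1, nat_lit 0, nat_lit 1, nat_lit 1, nat_lit 0, nat_lit 0], [nat_lit 0, nat_lit 1, nat_lit 1, nat_lit 1, nat_lit 1, nat_lit 1, nat_lit 1]]), (nat_lit 2, nat_lit 3, [[nat_lit 1]]), (nat_lit 5, nat_lit 2, [])] gens := by decide +kernel

theorem card_CM : Nat.card (CM (perm r3B)) = 504 := card_CM_le.antisymm (lb_CM.trans (chainLB_le _ gens_in))

theorem CM_le : CM (perm r3B) ≤ gen gens := le_gen_of_chainLB _ gens_in (card_CM_le.trans lb_CM)

theorem fc : fcChk (code (perm r3B)) FB 16 = true := by rw [r3B_in.code_perm]; decide +kernel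

theorem hD : ∀ d ∈ DD, genChk (code (perm r3B)) ws us 8 d.1 d.2.1 = true := by
  rw [r3B_in.code_perm]
  exact allL_eq_true.1 (by decide +kernel)

theorem bfs : bfsChk (DD.map (·.2.1)) (nat_lit 1 :: SP.map (·.1)) LL 8 = true := by decide +kernel

def cert : List (ℕ × ℕ × List (List ℕ)) := [(nat_lit 0, nat_lit 1, [[nat_lit 5, nat_lit 2, nat_lit 5], [nat_lit 6, nat_lit 2, nat_lit 0]]), (nat_lit 1, nat_lit 3, [[nat_lit 1, nat_lit 1, nat_lit 1, nat_lit 0, nat_lit 0], [nat_lit 0, nat_lit 0, nat_lit 1, nat_lit 1]]), (nat_lit 2, nat_lit 3, [[nat_lit 1, nat_lit 1, nat_lit 1, nat_lit 1, nat_lit 1, nat_lit 1, nat_lit 0], [nat_lit 1, nat_lit 1, nat_lit 1, nat_lit 0, nat_lit 1, nat_lit 0, nat_lit 1, nat_lit 0]]), (nat_lit 3, nat_lit 2, [[nat_lit 1, nat_lit 1, nat_lit 0, nat_lit 1, nat_lit 0, nat_lit 0, nat_lit 1], [nat_lit 0, nat_lit 1, nat_lit 0, nat_lit 0, nat_lit 0, nat_lit 1]]), (nat_lit 4, nat_lit 3, [[nat_lit 1, nat_lit 1, nat_lit 1, nat_lit 0], [nat_lit 1, nat_lit 0, nat_lit 1, nat_lit 1, nat_lit 0]]), (nat_lit 5, nat_lit 1, [[nat_lit 0, nat_lit 1, nat_lit 0]]), (nat_lit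 6, nat_lit 2, [])]

theorem lb_cert : chainLB cert (DD.map (·.2.2)) = 181440 := by decide +kernel

theorem hY : ∀ d ∈ DD, ∃ y, ∀ i, ((alternatingGroup (Fin 9)).subtype y i).val = dig d.2.2 i.val := by
  simp only [DD, List.forall_mem_cons]
  exact ⟨⟨⟨(⟨![0, 2, 1, 7, 8, 6, 5, 3, 4], ![0, 2, 1, 7, 8, 6, 5, 3, 4], by decide, by decide⟩ : Perm (Fin 9)), Perm.mem_alternatingGroup.2 (by decide +kernel)⟩, by decide +kernel⟩, ⟨⟨(⟨![0, 3, 7, 1, 6, 8, 4, 2, 5], ![0, 3, 7, 1, 6, 8, 4, 2, 5], by decide, by decide⟩ : Perm (Fin 9)), Perm.mem_alternatingGroup.2 (by decide +kernel)⟩, by decide +kernel⟩, ⟨⟨(⟨![0, 4, 8, 6, 1, 7, 3, 5, 2], ![0, 4, 8, 6, 1, 7, 3, 5, 2], by decide, by decide⟩ : Perm (Fin 9)), Perm.mem_alternatingGroup.2 (by decide +kernel)⟩, by decide +kernel⟩, ⟨⟨(⟨![0, 5, 6, 8, 7, 1, 2, 4, 3], ![0, 5, 6, 8, 7, 1, 2, 4, 3], by decide, by decide⟩ : Perm (Fin 9)), Perm.mem_alternatingGroup.2 (by decide +kernel)⟩, by decide +kernel⟩, ⟨⟨(⟨![0, 6, 4, 7, 1, 5, 8, 2, 3], ![0, 4, 7, 8, 2, 5, 1, 3, 6], by decide, by decide⟩ : Perm (Fin 9)), Perm.mem_alternatingGroup.2 (by decide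 +kernel)⟩, by decide +kernel⟩, ⟨⟨(⟨![0, 1, 4, 6, 7, 2, 8, 3, 5], ![0, 1, 5, 7, 2, 8, 3, 4, 6], by decide, by decide⟩ : Perm (Fin 9)), Perm.mem_alternatingGroup.2 (by decide +kernel)⟩, by decide +kernel⟩, ⟨⟨(⟨![0, 2, 3, 1, 5, 8, 4, 6, 7], ![0, 3, 1, 2, 6, 4, 7, 8, 5], by decide, by decide⟩ : Perm (Fin 9)), Perm.mem_alternatingGroup.2 (by decide +kernel)⟩, by decide +kernel⟩, ⟨⟨(⟨![1, 7, 2, 0, 5, 4, 6, 3, 8], ![3, 0, 2, 7, 5, 4, 6, 1, 8], by decide, by decide⟩ : Perm (Fin 9)), Perm.mem_alternatingGroup.2 (by decide +kernel)⟩, by decide +kernel⟩, by simp⟩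

theorem card_Y : Nat.card (alternatingGroup (Fin 9)) = 181440 := by
  rw [nat_card_alternatingGroup, Nat.card_eq_fintype_card, Fintype.card_fin]
  decide

theorem main : ∃ f : centralizer ({pC (perm r3B)} : Set Co0) →* alternatingGroup (Fin 9), Function.Surjective f ∧
    (∀ h, f h = 1 ↔ InK (pC (perm r3B)) h) ∧
    (∀ h ∈ centralizer ({pC (perm r3B)} : Set Co0), (∀ v ∈ Λ, FixC (pC (perm r3B)) v → FixC h v) →
      InK (pC (perm r3B)) h) ∧ ∀ T : Subgroup (alternatingGroup (Fin 9)), T.Normal → IsPGroup 2 T → T = ⊥ :=
  cent_main (p := 3) (n := 9) (nO := 135) (blks := blks) r3B_in.perm_mem (by decide) order crd bas fc CM_le card_CM_le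
    (by decide +kernel) (by decide +kernel) DD (by decide +kernel) (by decide +kernel) hD (by decide +kernel)
    (by decide +kernel) bfs (by decide +kernel) (hroots_of crd (fixC_e8 r3B_in.perm_mem) (short_roots crd (fixC_e8 r3B_in.perm_mem) (by decide +kernel)))
    (by decide +kernel) (by norm_num) _ (subtype_injective _) Fin.val (by norm_num) (by decide +kernel) (by decide +kernel)
    (by decide +kernel) hY cert (by rw [lb_cert]; exact card_Y.le) (by rw [lb_cert])

end

end CA.M24.Thom

theorem CA.M24.realizeEqnsThom : True := by
  have := @CA.M24.Thom.LL.eq_1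
  have := @CA.M24.Thom.LL.eq_def
  have := @CA.M24.Thom.LL.congr_simp
  have := @CA.M24.Thom.gens.eq_1
  have := @CA.M24.Thom.gens.eq_def
  have := @CA.M24.Thom.gens.congr_simp
  have := @CA.M24.Thom.SP.eq_1
  have := @CA.M24.Thom.SP.eq_def
  have := @CA.M24.Thom.SP.congr_simp
  have := @CA.M24.Thom.DD.eq_1
  have := @CA.M24.Thom.DD.eq_def
  have := @CA.M24.Thom.DD.congr_simp
  have := @CA.M24.Thom.blks.eq_1
  have := @CA.M24.Thom.blks.eq_def
  have := @CA.M24.Thom.blks.congr_simp
  have := @CA.M24.Thom.cert.eq_1
  have := @CA.M24.Thom.cert.eq_def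
  have := @CA.M24.Thom.cert.congr_simp
  have := @CA.M24.Thom.ws.eq_1
  have := @CA.M24.Thom.ws.eq_def
  have := @CA.M24.Thom.ws.congr_simp
  have := @CA.M24.Thom.us.eq_1
  have := @CA.M24.Thom.us.eq_def
  have := @CA.M24.Thom.us.congr_simp
  have := @CA.M24.Thom.FB.eq_1
  have := @CA.M24.Thom.FB.eq_def
  have := @CA.M24.Thom.FB.congr_simp
  trivial
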