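import Cfsg.Agent.M24.Fisch1

/-! Elements of order three in groups of Monster type. -/

set_option autoImplicit false

namespace CA.M24

open Cfsg Subgroup Equiv CA.Fi

universe u

variable {G : Type u} [Group G] [Finite G] {z : G} {Q : Subgroup (centralizer ({z} : Set G))} [Q.Normal]
  {φ : Co0 →* centralizer ({z} : Set G) ⧸ Q} {L : G → Vec → Prop}

theorem card_cent_M24 {π : Perm Pt} (hπ : π ∈ M24) :
    Nat.card (centralizer ({⟨π, hπ⟩} : Set M24)) = Nat.card (CM π) := by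
  rw [← card_map_of_injective M24.subtype_injective]
  congr 2
  ext g
  constructor
  · rintro ⟨g, hg, rfl⟩
    exact ⟨g.2, mem_cent_iff.2 (congrArg Subtype.val (mem_cent_iff.1 hg))⟩
  · rintro ⟨h1, h2⟩
    exact ⟨⟨g, h1⟩, mem_cent_iff.2 (Subtype.ext (mem_cent_iff.1 h2)), rfl⟩

theorem MS.normal_three (M : MS z Q φ L) {s b : G} (hs : L s (e8 none)) (hz : Commute b z) (hbs : Commute b s)
    (hb : orderOf b = 3) : ∃ φ' L', MS z Q φ' L' ∧ L' s (e8 none) ∧
      (AA φ' b (pC (perm r3A)) ∨ AA φ' b (pC (perm r3B))) := by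
  obtain ⟨φ, L, M, h8, π, hπ, ho, hA⟩ := M.normal hs hz hbs Nat.prime_three (by decide) hb
  obtain ⟨k, hk, e⟩ := classes_three hπ (of_orderOf ho (by norm_num)).1 (of_orderOf ho (by norm_num)).2
  obtain ⟨φ, L, M, h8, hA⟩ := M.reconj' h8 hπ hk hA
  refine ⟨φ, L, M, h8, ?_⟩
  rcases e with e | e <;> rw [e] at hA
  exacts [Or.inl hA, Or.inr hA]

theorem MS.central_iff (M : MS z Q φ L) {s b : G} (hs : L s (e8 none))
    (hY : zpowers b ≤ centralizer ({z, s} : Set G)) (hb : orderOf b = 3) {π : Perm Pt} (hπ : π ∈ M24)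
    (hA : AA φ b (pC π)) :
    (∃ P : Sylow 3 (centralizer ({z, s} : Set G)), (zpowers b).subgroupOf (centralizer ({z, s} : Set G)) ≤
      (center (P : Subgroup (centralizer ({z, s} : Set G)))).map
        (P : Subgroup (centralizer ({z, s} : Set G))).subtype) ↔ 27 ∣ Nat.card (CM π) := by
  obtain ⟨θ, h1, h2, h3⟩ := M.exists_perm_hom hs
  have h4 := three_central θ h1 h2 (y := ⟨b, hY (mem_zpowers b)⟩) (by rw [Subgroup.orderOf_mk, hb])
    (by rw [M.card_cent_pair hs, fact_three])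
  rw [h3 _ ⟨π, hπ⟩ hA, card_cent_M24] at h4
  rw [← h4]
  have : (zpowers b).subgroupOf (centralizer ({z, s} : Set G)) = zpowers ⟨b, hY (mem_zpowers b)⟩ := by
    ext x
    constructor
    · rintro ⟨k, e⟩
      exact ⟨k, Subtype.ext e⟩
    · rintro ⟨k, rfl⟩
      exact ⟨k, rfl⟩
  rw [this]

end CA.M24
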